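import Mathlib
import Cfsg.Agent.Lib.O73Cl.Data

set_option autoImplicit false
set_option maxRecDepth 100000
set_option maxHeartbeats 0

namespace Cfsg.Agent.Lib.O73Cl

theorem c_rel : relOK YS relW = true := by decide +kernel
theorem c_WL : ∀ g, g < 54 → WL.getD g 0 = wordN (WW.getD g []) := by decide +kernel
theorem c_YS : YS = L3 ++ L6 := by decide +kernel
theorem c_YS2 : ∀ y ∈ YS, y ∈ RL := by decide +kernel
theorem c_RL3 : ∀ y ∈ RL, mm y (mm y y) = ID := by decide +kernel
theorem c_REP : ∀ r, r < 7 → tl r = wordN (REPW.getD r []) := by decide +kernel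
theorem c_REPne : ∀ r, r < 7 → tl r ≠ ID ∧ mm (tl r) (mm (tl r) (tl r)) = ID := by decide +kernel
theorem c_SQ : ∀ r, r < 7 → SQI.getD r 0 < 5102 ∧ tl (SQI.getD r 0) = mm (tl r) (tl r) ∧ cpi (SQI.getD r 0) = r := by decide +kernel
theorem c_ID : toMat ID = 1 := by decide +kernel
theorem c_KP : ∀ p ∈ KP, p < 49 := by decide +kernel
theorem c_REPb : ∀ r, r < 7 → ∀ k ∈ REPW.getD r [], RL.getD k 0 ∈ RL := by decide +kernel
theorem c_WWb : ∀ g, g < 54 → ∀ k ∈ WW.getD g [], RL.getD k 0 ∈ RL := by decide +kernel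
theorem c_REPne2 : ∀ r, r < 7 → toMat (tl r) ≠ 1 := by decide +kernel
/-- The test of the normal forms in the first generators. -/
def f0T (C a : ℕ) : Bool := Nat.beq C (MD a)
theorem c_top : walkA f0T L3 ID 0 = true := by decide +kernel

end Cfsg.Agent.Lib.O73Cl
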