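import Mathlib
import Cfsg.Agent.Lib.O73Cl.Data
import Cfsg.Agent.Lib.KnownSimple.LabKit

set_option autoImplicit false
set_option maxRecDepth 100000
set_option maxHeartbeats 0

namespace Cfsg.Agent.Lib.O73Cl

open Cfsg.Agent.Lib.KnownSimple.Lab
theorem c_F0 : allI chkF 0 400 = true := by decide +kernel
theorem c_F1 : allI chkF 400 400 = true := by decide +kernel
theorem c_F2 : allI chkF 800 400 = true := by decide +kernel
theorem c_F3 : allI chkF 1200 400 = true := by decide +kernel
theorem c_F4 : allI chkF 1600 400 = true := by decide +kernel
theorem c_F5 : allI chkF 2000 400 = true := by decide +kernel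
theorem c_F6 : allI chkF 2400 400 = true := by decide +kernel
theorem c_F7 : allI chkF 2800 400 = true := by decide +kernel
theorem c_F8 : allI chkF 3200 400 = true := by decide +kernel
theorem c_F9 : allI chkF 3600 400 = true := by decide +kernel
theorem c_F10 : allI chkF 4000 400 = true := by decide +kernel
theorem c_F11 : allI chkF 4400 400 = true := by decide +kernel
theorem c_F12 : allI chkF 4800 302 = true := by decide +kernel

theorem c_F (i : ℕ) (hi : i < 5102) : chkF i = true := by
  by_cases h0 : i < 400
  · exact of_allI c_F0 i (by omega) (by omega)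
  by_cases h1 : i < 800
  · exact of_allI c_F1 i (by omega) (by omega)
  by_cases h2 : i < 1200
  · exact of_allI c_F2 i (by omega) (by omega)
  by_cases h3 : i < 1600
  · exact of_allI c_F3 i (by omega) (by omega)
  by_cases h4 : i < 2000
  · exact of_allI c_F4 i (by omega) (by omega)
  by_cases h5 : i < 2400
  · exact of_allI c_F5 i (by omega) (by omega)
  by_cases h6 : i < 2800
  · exact of_allI c_F6 i (by omega) (by omega)
  by_cases h7 : i < 3200
  · exact of_allI c_F7 i (by omega) (by omega)
  by_cases h8 : i < 3600
  · exact of_allI c_F8 i (by omega) (by omega)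
  by_cases h9 : i < 4000
  · exact of_allI c_F9 i (by omega) (by omega)
  by_cases h10 : i < 4400
  · exact of_allI c_F10 i (by omega) (by omega)
  by_cases h11 : i < 4800
  · exact of_allI c_F11 i (by omega) (by omega)
  exact of_allI c_F12 i (by omega) (by omega)

end Cfsg.Agent.Lib.O73Cl
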