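import Mathlib
import Cfsg.Agent.Lib.O73Cl.Data

set_option autoImplicit false
set_option maxRecDepth 100000
set_option maxHeartbeats 0

namespace Cfsg.Agent.Lib.O73Cl

/-- The first test. -/
def p0 (A c : ℕ) : Bool := Nat.beq (bf (ac A c) c) (bf c c)
/-- The second test. -/
def p1 (A c : ℕ) : Bool := Nat.beq (bf (ac A c) c) ((bf c c + 1) % 3)
/-- The third test. -/
def pF (A c : ℕ) : Bool := Nat.beq (ac A c) c
/-- Counting. -/
def cnt (p : ℕ → Bool) : ℕ := (List.range 2187).countP p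

/-- The values. -/
def I0 : List ℕ := [729, 1215, 243, 2187, 729, 729, 729]
/-- The values. -/
def I1 : List ℕ := [0, 486, 972, 0, 0, 0, 1458]
/-- The values. -/
def I2 : List ℕ := [27, 27, 27, 243, 27, 243, 243]

theorem c_I0 : ∀ r, r < 7 → cnt (p0 (tl r)) = I0.getD r 0 := by decide +kernel
theorem c_I1 : ∀ r, r < 7 → cnt (p1 (tl r)) = I1.getD r 0 := by decide +kernel
theorem c_I2 : ∀ r, r < 7 → cnt (pF (tl r)) = I2.getD r 0 := by decide +kernel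
theorem c_IsepF : ∀ r s : Fin 7, I0.getD r 0 = I0.getD s 0 → I1.getD r 0 = I1.getD s 0 →
    I2.getD r 0 = I2.getD s 0 → ¬ ((r : ℕ) = 0 ∧ (s : ℕ) = 4) → ¬ ((r : ℕ) = 4 ∧ (s : ℕ) = 0) → r = s := by decide +kernel
theorem c_Isep (r : ℕ) (hr : r < 7) (s : ℕ) (hs : s < 7) (h1 : I0.getD r 0 = I0.getD s 0) (h2 : I1.getD r 0 = I1.getD s 0)
    (h3 : I2.getD r 0 = I2.getD s 0) (h4 : ¬ (r = 0 ∧ s = 4)) (h5 : ¬ (r = 4 ∧ s = 0)) : r = s :=
  congrArg Fin.val (c_IsepF ⟨r, hr⟩ ⟨s, hs⟩ h1 h2 h3 h4 h5)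

end Cfsg.Agent.Lib.O73Cl
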