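import Mathlib
import Cfsg.Agent.Lib.O73Cl.Data

set_option autoImplicit false
set_option maxRecDepth 100000
set_option maxHeartbeats 0

namespace Cfsg.Agent.Lib.O73Cl
theorem c_W0 : walkA leaf L6 (MD 0) 0 = true := by decide +kernel
theorem c_W1 : walkA leaf L6 (MD 1) 1 = true := by decide +kernel
theorem c_W2 : walkA leaf L6 (MD 2) 2 = true := by decide +kernel
theorem c_W3 : walkA leaf L6 (MD 3) 3 = true := by decide +kernel
theorem c_W4 : walkA leaf L6 (MD 4) 4 = true := by decide +kernel
theorem c_W5 : walkA leaf L6 (MD 5) 5 = true := by decide +kernel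
theorem c_W6 : walkA leaf L6 (MD 6) 6 = true := by decide +kernel
theorem c_W7 : walkA leaf L6 (MD 7) 7 = true := by decide +kernel
theorem c_W8 : walkA leaf L6 (MD 8) 8 = true := by decide +kernel

end Cfsg.Agent.Lib.O73Cl
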