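import Mathlib
import Cfsg.Agent.Lib.O73Cl.Data

set_option autoImplicit false
set_option maxRecDepth 100000
set_option maxHeartbeats 0

namespace Cfsg.Agent.Lib.O73Cl
theorem c_W9 : walkA leaf L6 (MD 9) 9 = true := by decide +kernel
theorem c_W10 : walkA leaf L6 (MD 10) 10 = true := by decide +kernel
theorem c_W11 : walkA leaf L6 (MD 11) 11 = true := by decide +kernel
theorem c_W12 : walkA leaf L6 (MD 12) 12 = true := by decide +kernel
theorem c_W13 : walkA leaf L6 (MD 13) 13 = true := by decide +kernel
theorem c_W14 : walkA leaf L6 (MD 14) 14 = true := by decide +kernel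
theorem c_W15 : walkA leaf L6 (MD 15) 15 = true := by decide +kernel
theorem c_W16 : walkA leaf L6 (MD 16) 16 = true := by decide +kernel
theorem c_W17 : walkA leaf L6 (MD 17) 17 = true := by decide +kernel

end Cfsg.Agent.Lib.O73Cl
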