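import Mathlib
import Cfsg.Agent.Lib.O73Cl.Data

set_option autoImplicit false
set_option maxRecDepth 100000
set_option maxHeartbeats 0

namespace Cfsg.Agent.Lib.O73Cl
theorem c_W18 : walkA leaf L6 (MD 18) 18 = true := by decide +kernel
theorem c_W19 : walkA leaf L6 (MD 19) 19 = true := by decide +kernel
theorem c_W20 : walkA leaf L6 (MD 20) 20 = true := by decide +kernel
theorem c_W21 : walkA leaf L6 (MD 21) 21 = true := by decide +kernel
theorem c_W22 : walkA leaf L6 (MD 22) 22 = true := by decide +kernel
theorem c_W23 : walkA leaf L6 (MD 23) 23 = true := by decide +kernel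
theorem c_W24 : walkA leaf L6 (MD 24) 24 = true := by decide +kernel
theorem c_W25 : walkA leaf L6 (MD 25) 25 = true := by decide +kernel
theorem c_W26 : walkA leaf L6 (MD 26) 26 = true := by decide +kernel

end Cfsg.Agent.Lib.O73Cl
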