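import Mathlib
import Cfsg.Agent.Lib.O73Cl.Chk0
import Cfsg.Agent.Lib.O73Cl.ChkW0
import Cfsg.Agent.Lib.O73Cl.ChkW1
import Cfsg.Agent.Lib.O73Cl.ChkW2
import Cfsg.Agent.Lib.O73Cl.ChkF
import Cfsg.Agent.Lib.O73Cl.ChkI

/-!
# The classes of subgroups of order three, for a group of matrices with the right order
-/

set_option autoImplicit false
set_option maxRecDepth 100000
set_option linter.unusedSimpArgs false
set_option linter.unusedVariables false
set_option linter.unusedSectionVars false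
set_option linter.style.haveILetI false

namespace Cfsg.Agent.Lib.O73Cl

open Subgroup Matrix
open scoped Pointwise

theorem c_Wall : ∀ i, i < 27 → walkA leaf L6 (MD i) i = true := by
  intro i hi
  interval_cases i
  · exact c_W0
  · exact c_W1
  · exact c_W2
  · exact c_W3
  · exact c_W4
  · exact c_W5
  · exact c_W6
  · exact c_W7
  · exact c_W8
  · exact c_W9
  · exact c_W10
  · exact c_W11
  · exact c_W12
  · exact c_W13
  · exact c_W14
  · exact c_W15
  · exact c_W16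
  · exact c_W17
  · exact c_W18
  · exact c_W19
  · exact c_W20
  · exact c_W21
  · exact c_W22
  · exact c_W23
  · exact c_W24
  · exact c_W25
  · exact c_W26

theorem elG_split (l₃ l₆ : List ℕ) (h3 : l₃.length = 3) (h6 : l₆.length = 6) (a : ℕ) (ha : a < 19683) :
    elG ((l₃ ++ l₆).map toMat) a = elG (l₃.map toMat) (a / 729) * elG (l₆.map toMat) (a % 729) := by
  rw [List.map_append, elG_append' _ _ _ (by simp only [List.length_map, h3, h6]; norm_num; exact ha)]
  simp only [List.length_map, h6]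
  norm_num

theorem walk2 (f f0 : ℕ → ℕ → Bool) (l₃ l₆ : List ℕ) (h3 : l₃.length = 3) (h6 : l₆.length = 6) (MDf : ℕ → ℕ)
    (I0' : ℕ) (hI : toMat I0' = 1) (hf0 : ∀ C a, f0 C a = true → C = MDf a)
    (htop : walkA f0 l₃ I0' 0 = true) (hw : ∀ i, i < 27 → walkA f l₆ (MDf i) i = true) (a : ℕ) (ha : a < 19683) :
    ∃ C, f C a = true ∧ toMat C = elG ((l₃ ++ l₆).map toMat) a := by
  have hi : a / 729 < 27 := by omega
  have hr : a % 729 < 729 := Nat.mod_lt _ (by norm_num)
  obtain ⟨C₀, h0, h1⟩ := walkA_spec f0 l₃ I0' 0 htop (a / 729) (by rw [h3]; omega)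
  have h2 : C₀ = MDf (a / 729) := by
    have := hf0 _ _ h0
    simpa only [h3, zero_mul, zero_add] using this
  obtain ⟨C, hC, hm⟩ := walkA_spec f l₆ (MDf (a / 729)) (a / 729) (hw _ hi) (a % 729) (by rw [h6]; omega)
  refine ⟨C, ?_, ?_⟩
  · rw [h6] at hC
    have e : a / 729 * 3 ^ 6 + a % 729 = a := by omega
    rw [e] at hC
    exact hC
  · rw [hm, elG_split l₃ l₆ h3 h6 a ha, ← h2, h1, hI, one_mul]

theorem leaf_all (a : ℕ) (ha : a < 19683) : ∃ C, leaf C a = true ∧ toMat C = elG (YS.map toMat) a := by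
  have hL6 : L6.length = 6 := by decide +kernel
  have hL3 : L3.length = 3 := by decide +kernel
  have hf0 : ∀ C a, f0T C a = true → C = MD a := by
    intro C a h
    simpa only [f0T, Nat.beq_eq] using h
  obtain ⟨C, h1, h2⟩ := walk2 leaf f0T L3 L6 hL3 hL6 MD ID c_ID hf0 c_top c_Wall a ha
  exact ⟨C, h1, h2.trans (congrArg (fun l => elG (List.map toMat l) a) c_YS.symm)⟩

theorem ent_mod_eq {C C' : ℕ} (h : toMat C = toMat C') {e : ℕ} (he : e < 49) : ent C e % 3 = ent C' e % 3 := by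
  have h1 : e / 7 < 7 := by omega
  have h2 : e % 7 < 7 := Nat.mod_lt _ (by norm_num)
  have h3 := congrFun (congrFun h ⟨e / 7, h1⟩) ⟨e % 7, h2⟩
  simp only [toMat, Matrix.of_apply] at h3
  have e1 : 7 * (e / 7) + e % 7 = e := by omega
  rw [e1] at h3
  exact (ZMod.natCast_eq_natCast_iff' _ _ 3).1 h3

theorem key_congr {C C' : ℕ} (h : toMat C = toMat C') : key C = key C' := by
  have hK := c_KP
  simp only [key]
  congr 1
  apply List.map_congr_left
  intro p hp
  exact ent_mod_eq h (hK p hp)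

theorem leaf_a {C a : ℕ} (h : leaf C a = true) : tbE (key C) % 32768 = a := by
  rw [leaf, force_eq, leaf2] at h
  simp only [Bool.and_eq_true, Nat.beq_eq] at h
  exact h.1

theorem cube_fail_false {C : ℕ} (h : toMat C ^ 3 = 1) : cubeFail C = false := by
  have key : ∀ v, v < 2187 → ac C (ac C (ac C v)) = v := by
    intro v hv
    apply vec_inj ac_lt_of hv
    rw [vec_ac, vec_ac, vec_ac, Matrix.mulVec_mulVec, Matrix.mulVec_mulVec]
    have e : toMat C * toMat C * toMat C = toMat C ^ 3 := by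
      rw [pow_succ, pow_two]
    rw [e, h, Matrix.one_mulVec]
  simp only [cubeFail]
  rw [key _ (by norm_num), key _ (by norm_num)]
  simp [Nat.beq_refl]

/-- What the test says. -/
theorem leaf_cases {C a : ℕ} (h : leaf C a = true) (h3 : toMat C ^ 3 = 1) :
    C = ID ∨ ∃ i < 5102, tl i = C := by
  rw [leaf, force_eq, leaf2] at h
  simp only [Bool.and_eq_true, Bool.or_eq_true, Nat.beq_eq, Nat.blt_eq, Nat.ble_eq] at h
  rcases h.2 with ⟨_, h4 | h4⟩ | ⟨⟨h5, h6⟩, h7⟩
  · exact Or.inl h4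
  · rw [cube_fail_false h3] at h4
    exact absurd h4 (by simp)
  · exact Or.inr ⟨_, by omega, h7⟩

/-- Cast of small numbers. -/
theorem cast_inj3 {a b : ℕ} (ha : a < 3) (hb : b < 3) (h : (a : ZMod 3) = b) : a = b := by
  have := (ZMod.natCast_eq_natCast_iff' _ _ 3).1 h
  rwa [Nat.mod_eq_of_lt ha, Nat.mod_eq_of_lt hb] at this

theorem bf_lt (c d : ℕ) : bf c d < 3 := Nat.mod_lt _ (by norm_num)
theorem qf_lt (c : ℕ) : qf c < 3 := Nat.mod_lt _ (by norm_num)

theorem p0_iff (A c : ℕ) : p0 A c = true ↔ B7 (toMat A *ᵥ vec c) (vec c) = B7 (vec c) (vec c) := by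
  rw [p0, Nat.beq_eq, ← vec_ac, B7_vec, B7_vec]
  constructor
  · intro h
    rw [h]
  · exact cast_inj3 (bf_lt _ _) (bf_lt _ _)

theorem p1_iff (A c : ℕ) : p1 A c = true ↔ B7 (toMat A *ᵥ vec c) (vec c) = B7 (vec c) (vec c) + 1 := by
  rw [p1, Nat.beq_eq, ← vec_ac, B7_vec, B7_vec]
  constructor
  · intro h
    rw [h, ZMod.natCast_mod]
    push_cast
    rfl
  · intro h
    apply cast_inj3 (bf_lt _ _) (Nat.mod_lt _ (by norm_num))
    rw [h, ZMod.natCast_mod]
    push_cast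
    rfl

theorem pF_iff (A : ℕ) {c : ℕ} (hc : c < 2187) : pF A c = true ↔ toMat A *ᵥ vec c = vec c := by
  rw [pF, Nat.beq_eq, ← vec_ac]
  constructor
  · intro h
    rw [h]
  · exact vec_inj ac_lt_of hc

theorem countP_range (p : ℕ → Bool) (n : ℕ) :
    (List.range n).countP p = ((Finset.range n).filter (fun c => p c = true)).card := by
  induction n with
  | zero => simp
  | succ n ih =>
    rw [List.range_succ, List.countP_append, ih, Finset.range_add_one, Finset.filter_insert]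
    by_cases h : p n = true
    · rw [if_pos h, Finset.card_insert_of_notMem (by simp)]
      simp [h]
    · rw [if_neg h]
      simp [h]

theorem cnt_eq (p : ℕ → Bool) (P : (Fin 7 → ZMod 3) → Prop) (h : ∀ c, c < 2187 → (p c = true ↔ P (vec c))) :
    cnt p = Nat.card {v // P v} := by
  classical
  have h1 : cnt p = ((Finset.range 2187).filter (fun c => p c = true)).card := countP_range p 2187
  obtain ⟨s, hs⟩ : ∃ s, s = (Finset.range 2187).filter (fun c => p c = true) := ⟨_, rfl⟩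
  rw [h1, ← hs]
  have hmem : ∀ c : ℕ, c ∈ s ↔ c < 2187 ∧ p c = true := by
    intro c
    rw [hs, Finset.mem_filter, Finset.mem_range]
  let f : s → {v // P v} := fun c => ⟨vec c.1, (h c.1 ((hmem _).1 c.2).1).1 ((hmem _).1 c.2).2⟩
  have hbij : Function.Bijective f := by
    constructor
    · intro a b e
      apply Subtype.ext
      exact vec_inj ((hmem _).1 a.2).1 ((hmem _).1 b.2).1 (congrArg Subtype.val e)
    · rintro ⟨v, hv⟩
      obtain ⟨c, hc, rfl⟩ := vec_surj v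
      exact ⟨⟨c, (hmem c).2 ⟨hc, (h c hc).2 hv⟩⟩, rfl⟩
  rw [← Nat.card_congr (Equiv.ofBijective f hbij), Nat.card_eq_fintype_card, Fintype.card_coe]

theorem map_conj_mul {G : Type*} [Group G] (X : Subgroup G) (u g : G) :
    (X.map (MulAut.conj g).toMonoidHom).map (MulAut.conj u).toMonoidHom =
      X.map (MulAut.conj (u * g)).toMonoidHom := by
  rw [Subgroup.map_map]
  congr 1
  ext x
  simp [MulAut.conj_apply, mul_assoc]

/-- Conjugation of a family of vectors. -/
theorem card_conj {G : Type*} [Group G] (ρ : G →* Matrix (Fin 7) (Fin 7) (ZMod 3)) (g : G) (P P' : (Fin 7 → ZMod 3) → Prop)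
    (h : ∀ v, P v ↔ P' (ρ g *ᵥ v)) : Nat.card {v // P v} = Nat.card {v // P' v} := by
  have hl : ∀ v : Fin 7 → ZMod 3, ρ g⁻¹ *ᵥ (ρ g *ᵥ v) = v := by
    intro v
    rw [Matrix.mulVec_mulVec, ← map_mul, inv_mul_cancel, map_one, Matrix.one_mulVec]
  have hr : ∀ v : Fin 7 → ZMod 3, ρ g *ᵥ (ρ g⁻¹ *ᵥ v) = v := by
    intro v
    rw [Matrix.mulVec_mulVec, ← map_mul, mul_inv_cancel, map_one, Matrix.one_mulVec]
  let e : (Fin 7 → ZMod 3) ≃ (Fin 7 → ZMod 3) := ⟨fun v => ρ g *ᵥ v, fun v => ρ g⁻¹ *ᵥ v, hl, hr⟩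
  exact Nat.card_congr (Equiv.subtypeEquiv e h)

section group

variable {G : Type*} [Group G] (ρ : G →* Matrix (Fin 7) (Fin 7) (ZMod 3))

/-- The codes of elements of the group. -/
def InG (A : ℕ) : Prop := ∃ g, ρ g = toMat A

/-- The element of a code. -/
noncomputable def lift (A : ℕ) : G := by
  classical
  exact if h : InG ρ A then h.choose else 1

/-- The Sylow subgroup. -/
noncomputable def TT : Subgroup G := subL (YS.map (lift ρ))

/-- The elements of the classes. -/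
noncomputable def xr (r : ℕ) : G := lift ρ (tl r)

theorem lift_spec {A : ℕ} (h : InG ρ A) : ρ (lift ρ A) = toMat A := by
  rw [lift, dif_pos h]
  exact h.choose_spec

theorem InG_mm {A B : ℕ} (hA : InG ρ A) (hB : InG ρ B) : InG ρ (mm A B) := by
  obtain ⟨a, ha⟩ := hA
  obtain ⟨b, hb⟩ := hB
  exact ⟨a * b, by rw [map_mul, ha, hb, toMat_mm]⟩

theorem InG_ID : InG ρ ID := ⟨1, by rw [map_one, c_ID]⟩

variable (hinj : Function.Injective ρ)

include hinj

theorem allZ_spec {y : ℕ} {l : List ℕ} : ∀ (zs : List ℕ) (R : List (List ℕ)), allZ y l zs R = true →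
    ∀ z ∈ zs, ∃ w : List ℕ, (∀ c ∈ w, c ∈ l) ∧ mm y z = mm (w.foldr mm ID) y := by
  intro zs
  induction zs with
  | nil => intro _ _ z hz; simp at hz
  | cons z zs ih =>
    intro R h z' hz'
    cases R with
    | nil => simp [allZ] at h
    | cons w R =>
      simp only [allZ, Bool.and_eq_true, List.all_eq_true, List.contains_iff_mem, Nat.beq_eq] at h
      obtain ⟨⟨h1, h2⟩, h3⟩ := h
      rcases List.mem_cons.1 hz' with rfl | hz'
      · exact ⟨w, h1, h2⟩
      · exact ih R h3 z' hz'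

theorem foldr_mem {l : List ℕ} (hl : ∀ y ∈ l, InG ρ y) : ∀ (w : List ℕ), (∀ c ∈ w, c ∈ l) →
    ∃ g ∈ subL (l.map (lift ρ)), ρ g = toMat (w.foldr mm ID) := by
  intro w
  induction w with
  | nil =>
    intro _
    exact ⟨1, one_mem _, by simp [c_ID]⟩
  | cons c w ih =>
    intro h
    obtain ⟨g, hg, hg2⟩ := ih (fun d hd => h d (by simp [hd]))
    have hc := h c (by simp)
    refine ⟨lift ρ c * g, mul_mem (Subgroup.subset_closure ?_) hg, ?_⟩
    · exact List.mem_map_of_mem hc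
    · simp only [List.foldr_cons]
      rw [map_mul, lift_spec ρ (hl c hc), hg2, toMat_mm]

theorem chainOK_of : ∀ (l : List ℕ) (R : List (List (List ℕ))), (∀ y ∈ l, InG ρ y) → relOK l R = true →
    ChainOK (l.map (lift ρ)) := by
  intro l
  induction l with
  | nil => intro _ _ _; trivial
  | cons y l ih =>
    intro R hl h
    cases R with
    | nil => simp [relOK] at h
    | cons R Rs =>
      simp only [relOK, Bool.and_eq_true, Nat.beq_eq] at h
      obtain ⟨⟨h1, h2⟩, h3⟩ := h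
      have hl' : ∀ z ∈ l, InG ρ z := fun z hz => hl z (by simp [hz])
      have hy := hl y (by simp)
      refine ⟨?_, ?_, ih Rs hl' h3⟩
      · apply hinj
        rw [map_pow, lift_spec ρ hy, map_one, pow_succ', pow_two, ← toMat_mm, ← toMat_mm, h1, c_ID]
      · intro z' hz'
        obtain ⟨z, hz, rfl⟩ := List.mem_map.1 hz'
        obtain ⟨w, hw1, hw2⟩ := allZ_spec ρ hinj l R h2 z hz
        obtain ⟨g, hg, hg2⟩ := foldr_mem ρ hinj hl' w hw1
        have e : lift ρ y * lift ρ z = g * lift ρ y := by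
          apply hinj
          rw [map_mul, map_mul, lift_spec ρ hy, lift_spec ρ (hl' z hz), hg2, ← toMat_mm, ← toMat_mm, hw2]
        have e2 : lift ρ y * lift ρ z * (lift ρ y)⁻¹ = g := by
          rw [e, mul_inv_cancel_right]
        rw [e2]
        exact hg

variable (hR : ∀ y ∈ RL, InG ρ y)

include hR

theorem InG_word : ∀ (w : List ℕ), (∀ k ∈ w, RL.getD k 0 ∈ RL) → InG ρ (wordN w) := by
  intro w
  induction w with
  | nil => intro _; exact InG_ID ρ
  | cons k w ih =>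
    intro h
    simp only [wordN]
    exact InG_mm ρ (hR _ (h k (by simp))) (ih (fun j hj => h j (by simp [hj])))

theorem InG_Y : ∀ y ∈ YS, InG ρ y := fun y hy => hR y (c_YS2 y hy)

theorem map_yG : ((YS.map (lift ρ)).map ρ) = YS.map toMat := by
  rw [List.map_map]
  apply List.map_congr_left
  intro y hy
  exact lift_spec ρ (InG_Y ρ hinj hR y hy)

theorem InG_tl {r : ℕ} (hr : r < 7) : InG ρ (tl r) := by
  rw [c_REP r hr]
  exact InG_word ρ hinj hR _ (c_REPb r hr)

theorem InG_WL {g : ℕ} (hg : g < 54) : InG ρ (WL.getD g 0) := by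
  rw [c_WL g hg]
  exact InG_word ρ hinj hR _ (c_WWb g hg)

/-- The fusion. -/
theorem fusion : ∀ i, i < 5102 → ∃ u, ρ u * toMat (tl i) = toMat (tl (cpi i)) * ρ u := by
  intro i
  induction i using Nat.strong_induction_on with
  | _ i ih =>
    intro hi
    have h := c_F i hi
    simp only [chkF, Bool.and_eq_true, Nat.blt_eq] at h
    obtain ⟨⟨h1, h2⟩, h3⟩ := h
    by_cases h7 : i < 7
    · rw [if_pos h7, Nat.beq_eq] at h3
      exact ⟨1, by rw [h3, map_one, one_mul, mul_one]⟩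
    · rw [if_neg h7] at h3
      simp only [Bool.and_eq_true, Nat.blt_eq, Nat.beq_eq] at h3
      obtain ⟨⟨h4, h5⟩, h6⟩ := h3
      obtain ⟨u, hu⟩ := ih _ h4 (by omega)
      obtain ⟨w, hw⟩ := InG_WL ρ hinj hR h2
      refine ⟨u * w, ?_⟩
      rw [h5] at hu
      have e : ρ w * toMat (tl i) = toMat (tl (pr i)) * ρ w := by
        rw [hw, ← toMat_mm, ← toMat_mm, h6]
      rw [map_mul, mul_assoc, e, ← mul_assoc, hu, mul_assoc]

theorem chain_Y : ChainOK (YS.map (lift ρ)) := chainOK_of ρ hinj YS relW (InG_Y ρ hinj hR) c_rel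

theorem rho_el (a : ℕ) : ρ (elG (YS.map (lift ρ)) a) = elG (YS.map toMat) a := by
  rw [map_elG, map_yG ρ hinj hR]

theorem card_TT : Nat.card (TT ρ) = 19683 := by
  have hlen : (YS.map (lift ρ)).length = 9 := by
    rw [List.length_map]
    decide +kernel
  let f : Fin 19683 → TT ρ := fun a => ⟨elG (YS.map (lift ρ)) a, elG_mem _ _⟩
  have hbij : Function.Bijective f := by
    constructor
    · intro a b e
      have e1 : elG (YS.map (lift ρ)) a.1 = elG (YS.map (lift ρ)) b.1 := congrArg Subtype.val e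
      have e2 := congrArg ρ e1
      rw [rho_el ρ hinj hR, rho_el ρ hinj hR] at e2
      obtain ⟨C, hC, hCm⟩ := leaf_all a.1 a.2
      obtain ⟨C', hC', hCm'⟩ := leaf_all b.1 b.2
      have e3 : toMat C = toMat C' := by rw [hCm, hCm', e2]
      apply Fin.ext
      rw [← leaf_a hC, ← leaf_a hC', key_congr e3]
    · rintro ⟨t, ht⟩
      obtain ⟨a, ha, rfl⟩ := chain_mem _ (chain_Y ρ hinj hR) t ht
      rw [hlen] at ha
      exact ⟨⟨a, by norm_num at ha; exact ha⟩, rfl⟩
  rw [← Nat.card_congr (Equiv.ofBijective f hbij), Nat.card_fin]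

variable [Finite G] (hcard : Nat.card G = 4585351680)

include hcard

theorem hfact : (Nat.card G).factorization 3 = 9 := by
  have hp : Nat.Prime 3 := by norm_num
  have hne : Nat.card G ≠ 0 := by rw [hcard]; norm_num
  have h1 : 3 ^ 9 ∣ Nat.card G := by rw [hcard]; norm_num
  have h2 : ¬ 3 ^ 10 ∣ Nat.card G := by rw [hcard]; norm_num
  have h3 := (hp.pow_dvd_iff_le_factorization hne).1 h1
  have h4 : ¬ 10 ≤ (Nat.card G).factorization 3 := fun h => h2 ((hp.pow_dvd_iff_le_factorization hne).2 h)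
  omega

/-- A subgroup of order three is conjugate into the Sylow subgroup. -/
theorem conj_into (X : Subgroup G) (hX : Nat.card X = 3) :
    ∃ g : G, X.map (MulAut.conj g).toMonoidHom ≤ TT ρ := by
  haveI : Fact (Nat.Prime 3) := ⟨by norm_num⟩
  have hp : IsPGroup 3 X := IsPGroup.of_card (n := 1) (by simpa using hX)
  obtain ⟨Q, hQ⟩ := hp.exists_le_sylow
  let PT : Sylow 3 G := Sylow.ofCard (TT ρ) (by rw [card_TT ρ hinj hR, hfact ρ hinj hR hcard]; norm_num)
  obtain ⟨g, hg⟩ := MulAction.exists_smul_eq G Q PT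
  refine ⟨g, ?_⟩
  rintro _ ⟨x, hx, rfl⟩
  have h2 : (↑(g • Q) : Subgroup G) = MulAut.conj g • (↑Q : Subgroup G) := Sylow.coe_subgroup_smul
  have h3 : (MulAut.conj g) x ∈ (↑(g • Q) : Subgroup G) := by
    rw [h2, Subgroup.mem_smul_pointwise_iff_exists]
    exact ⟨x, hQ hx, rfl⟩
  rw [hg] at h3
  exact h3

theorem rho_xr {r : ℕ} (hr : r < 7) : ρ (xr ρ r) = toMat (tl r) := lift_spec ρ (InG_tl ρ hinj hR hr)

theorem xr_cube {r : ℕ} (hr : r < 7) : xr ρ r ^ 3 = 1 := by
  apply hinj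
  rw [map_pow, rho_xr ρ hinj hR hcard hr, map_one, pow_succ', pow_two, ← toMat_mm, ← toMat_mm, (c_REPne r hr).2, c_ID]

theorem xr_ne {r : ℕ} (hr : r < 7) : xr ρ r ≠ 1 := by
  intro h
  have h1 := rho_xr ρ hinj hR hcard hr
  rw [h, map_one] at h1
  exact c_REPne2 r hr h1.symm

theorem card_xr {r : ℕ} (hr : r < 7) : Nat.card (zpowers (xr ρ r)) = 3 := by
  haveI : Fact (Nat.Prime 3) := ⟨by norm_num⟩
  rw [Nat.card_zpowers]
  exact orderOf_eq_prime (xr_cube ρ hinj hR hcard hr) (xr_ne ρ hinj hR hcard hr)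

/-- A subgroup of order three is conjugate to one of the seven. -/
theorem cover (X : Subgroup G) (hX : Nat.card X = 3) :
    ∃ r < 7, ∃ g : G, X.map (MulAut.conj g).toMonoidHom = zpowers (xr ρ r) := by
  haveI : Fact (Nat.Prime 3) := ⟨by norm_num⟩
  obtain ⟨g, hg⟩ := conj_into ρ hinj hR hcard X hX
  obtain ⟨H, hH⟩ : ∃ H, H = X.map (MulAut.conj g).toMonoidHom := ⟨_, rfl⟩
  rw [← hH] at hg
  have hcH : Nat.card H = 3 := by
    rw [hH, ← hX]
    exact (Nat.card_congr (Subgroup.equivMapOfInjective _ _ (MulAut.conj g).injective).toEquiv).symm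
  haveI : Nontrivial H := by
    rw [← Finite.one_lt_card_iff_nontrivial, hcH]
    norm_num
  obtain ⟨t', ht'⟩ := exists_ne (1 : H)
  obtain ⟨t, htH⟩ := t'
  have ht1 : t ≠ 1 := fun h => ht' (Subtype.ext h)
  have ht3 : t ^ 3 = 1 := by
    have h1 := pow_card_eq_one' (x := (⟨t, htH⟩ : H))
    rw [hcH] at h1
    exact congrArg Subtype.val h1
  have hzt : Nat.card (zpowers t) = 3 := by
    rw [Nat.card_zpowers]
    exact orderOf_eq_prime ht3 ht1
  have hHz : H = zpowers t := by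
    symm
    apply Subgroup.eq_of_le_of_card_ge
    · rwa [zpowers_le]
    · rw [hcH, hzt]
  have hlen : (YS.map (lift ρ)).length = 9 := by
    rw [List.length_map]
    decide +kernel
  obtain ⟨a, ha, hta⟩ := chain_mem _ (chain_Y ρ hinj hR) t (hg htH)
  rw [hlen] at ha
  obtain ⟨C, hC, hCm⟩ := leaf_all a (by norm_num at ha; exact ha)
  have hrt : ρ t = toMat C := by
    rw [hCm, hta, rho_el ρ hinj hR]
  have hMC : toMat C ^ 3 = 1 := by
    rw [← hrt, ← map_pow, ht3, map_one]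
  rcases leaf_cases hC hMC with rfl | ⟨i, hi, hiC⟩
  · exfalso
    apply ht1
    apply hinj
    rw [hrt, c_ID, map_one]
  · obtain ⟨u, hu⟩ := fusion ρ hinj hR i hi
    have hcp : cpi i < 7 := by
      have h := c_F i hi
      simp only [chkF, Bool.and_eq_true, Nat.blt_eq] at h
      exact h.1.1
    refine ⟨cpi i, hcp, u * g, ?_⟩
    have e : u * t * u⁻¹ = xr ρ (cpi i) := by
      rw [mul_inv_eq_iff_eq_mul]
      apply hinj
      rw [map_mul, map_mul, rho_xr ρ hinj hR hcard hcp, hrt, ← hiC, hu]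
    rw [← map_conj_mul, ← hH, hHz, MonoidHom.map_zpowers]
    congr 1

variable (hB : ∀ (g : G) (u v : Fin 7 → ZMod 3), B7 (ρ g *ᵥ u) (ρ g *ᵥ v) = B7 u v)

include hB

/-- The invariants. -/
theorem inv_eq {r s : ℕ} {g : G} (h : ρ g * toMat (tl r) = toMat (tl s) * ρ g) :
    cnt (p0 (tl r)) = cnt (p0 (tl s)) ∧ cnt (p1 (tl r)) = cnt (p1 (tl s)) ∧ cnt (pF (tl r)) = cnt (pF (tl s)) := by
  have hc : ∀ v : Fin 7 → ZMod 3, toMat (tl s) *ᵥ (ρ g *ᵥ v) = ρ g *ᵥ (toMat (tl r) *ᵥ v) := by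
    intro v
    rw [Matrix.mulVec_mulVec, Matrix.mulVec_mulVec, h]
  have hinjv : ∀ u v : Fin 7 → ZMod 3, ρ g *ᵥ u = ρ g *ᵥ v → u = v := by
    intro u v e
    have := congrArg (fun w => ρ g⁻¹ *ᵥ w) e
    simpa only [Matrix.mulVec_mulVec, ← map_mul, inv_mul_cancel, map_one, Matrix.one_mulVec] using this
  refine ⟨?_, ?_, ?_⟩
  · rw [cnt_eq _ (fun v => B7 (toMat (tl r) *ᵥ v) v = B7 v v) (fun c _ => p0_iff (tl r) c),
      cnt_eq _ (fun v => B7 (toMat (tl s) *ᵥ v) v = B7 v v) (fun c _ => p0_iff (tl s) c)]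
    apply card_conj ρ g
    intro v
    rw [hc, hB, hB]
  · rw [cnt_eq _ (fun v => B7 (toMat (tl r) *ᵥ v) v = B7 v v + 1) (fun c _ => p1_iff (tl r) c),
      cnt_eq _ (fun v => B7 (toMat (tl s) *ᵥ v) v = B7 v v + 1) (fun c _ => p1_iff (tl s) c)]
    apply card_conj ρ g
    intro v
    rw [hc, hB, hB]
  · rw [cnt_eq _ (fun v => toMat (tl r) *ᵥ v = v) (fun c hc => pF_iff (tl r) hc),
      cnt_eq _ (fun v => toMat (tl s) *ᵥ v = v) (fun c hc => pF_iff (tl s) hc)]
    apply card_conj ρ g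
    intro v
    rw [hc]
    constructor
    · intro e
      rw [e]
    · exact hinjv _ _

variable (hpair : ¬ ∃ g : G, ρ g * toMat (tl 0) = toMat (tl 4) * ρ g)

include hpair

/-- Conjugate elements of the seven are equal. -/
theorem rs_eq {r s : ℕ} (hr : r < 7) (hs : s < 7) {g : G} (h : ρ g * toMat (tl r) = toMat (tl s) * ρ g) : r = s := by
  obtain ⟨h1, h2, h3⟩ := inv_eq ρ hinj hR hcard hB h
  by_cases h04 : r = 0 ∧ s = 4
  · obtain ⟨rfl, rfl⟩ := h04
    exact absurd ⟨g, h⟩ hpair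
  by_cases h40 : r = 4 ∧ s = 0
  · obtain ⟨rfl, rfl⟩ := h40
    exfalso
    apply hpair
    refine ⟨g⁻¹, ?_⟩
    have e1 : ρ g⁻¹ * ρ g = 1 := by rw [← map_mul, inv_mul_cancel, map_one]
    have e2 : ρ g * ρ g⁻¹ = 1 := by rw [← map_mul, mul_inv_cancel, map_one]
    calc ρ g⁻¹ * toMat (tl 0) = ρ g⁻¹ * (toMat (tl 0) * (ρ g * ρ g⁻¹)) := by rw [e2, mul_one]
      _ = ρ g⁻¹ * (toMat (tl 0) * ρ g) * ρ g⁻¹ := by simp only [mul_assoc]
      _ = ρ g⁻¹ * (ρ g * toMat (tl 4)) * ρ g⁻¹ := by rw [h]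
      _ = (ρ g⁻¹ * ρ g) * toMat (tl 4) * ρ g⁻¹ := by simp only [mul_assoc]
      _ = toMat (tl 4) * ρ g⁻¹ := by rw [e1, one_mul]
  rw [c_I0 r hr, c_I0 s hs] at h1
  rw [c_I1 r hr, c_I1 s hs] at h2
  rw [c_I2 r hr, c_I2 s hs] at h3
  exact c_Isep r hr s hs h1 h2 h3 h04 h40

/-- The main abstract theorem. -/
theorem main_abs : ∃ Y : Fin 7 → Subgroup G, (∀ i, Nat.card (Y i) = 3) ∧
    (∀ i j, (∃ g : G, (Y i).map (MulAut.conj g).toMonoidHom = Y j) → i = j) ∧
    ∀ X : Subgroup G, Nat.card X = 3 → ∃ i, ∃ g : G, X.map (MulAut.conj g).toMonoidHom = Y i := by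
  refine ⟨fun i => zpowers (xr ρ i), fun i => card_xr ρ hinj hR hcard i.2, ?_, ?_⟩
  · rintro i j ⟨g, hg⟩
    apply Fin.ext
    have hg' : (zpowers (xr ρ i)).map (MulAut.conj g).toMonoidHom = zpowers (xr ρ j) := hg
    have hmem : g * xr ρ i * g⁻¹ ∈ zpowers (xr ρ j) := by
      rw [← hg']
      exact ⟨xr ρ i, mem_zpowers _, rfl⟩
    obtain ⟨k, hk⟩ := (mem_powers_iff_mem_zpowers).2 hmem
    have hk' : xr ρ j ^ k = g * xr ρ i * g⁻¹ := hk
    rw [pow_eq_pow_mod k (xr_cube ρ hinj hR hcard j.2)] at hk'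
    have hlt : k % 3 < 3 := Nat.mod_lt _ (by norm_num)
    have hE : g * xr ρ i = xr ρ j ^ (k % 3) * g := by
      rw [hk']
      group
    have hEm : ρ g * toMat (tl i) = toMat (tl j) ^ (k % 3) * ρ g := by
      have h5 := congrArg ρ hE
      rwa [map_mul, map_mul, map_pow, rho_xr ρ hinj hR hcard i.2, rho_xr ρ hinj hR hcard j.2] at h5
    obtain h0 | h1 | h2 : k % 3 = 0 ∨ k % 3 = 1 ∨ k % 3 = 2 := by omega
    · exfalso
      rw [h0, pow_zero, one_mul] at hE
      exact xr_ne ρ hinj hR hcard i.2 (mul_left_cancel (hE.trans (mul_one g).symm))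
    · rw [h1, pow_one] at hEm
      exact rs_eq ρ hinj hR hcard hB hpair i.2 j.2 hEm
    · rw [h2] at hEm
      obtain ⟨k1, k2, k3⟩ := c_SQ j j.2
      obtain ⟨u, hu⟩ := fusion ρ hinj hR _ k1
      rw [k2, k3, toMat_mm] at hu
      apply rs_eq ρ hinj hR hcard hB hpair i.2 j.2 (g := u * g)
      rw [map_mul, mul_assoc, hEm, pow_two, ← mul_assoc, hu, mul_assoc]
  · intro X hX
    obtain ⟨r, hr, g, hg⟩ := cover ρ hinj hR hcard X hX
    exact ⟨⟨r, hr⟩, g, hg⟩

end group

end Cfsg.Agent.Lib.O73Cl
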