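import Mathlib
import Cfsg.Agent.Lib.KnownSimple.LabSU

/-!
# Packed matrices over the field with three elements, in dimension seven
-/

set_option autoImplicit false
set_option linter.unusedSimpArgs false
set_option linter.unusedVariables false
set_option linter.unusedSectionVars false

namespace Cfsg.Agent.Lib.O73Cl

open Matrix

/-- A field of a packed matrix. -/
def ent (A e : ℕ) : ℕ := (A >>> (2 * e)) % 4

/-- Packing of a list. -/
def pk : List ℕ → ℕ
  | [] => 0
  | x :: l => x + 4 * pk l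

theorem ent_zero (x p : ℕ) (hx : x < 4) : ent (x + 4 * p) 0 = x := by
  simp only [ent, Nat.mul_zero, Nat.shiftRight_zero]
  omega

theorem ent_succ (x p k : ℕ) (hx : x < 4) : ent (x + 4 * p) (k + 1) = ent p k := by
  simp only [ent, Nat.shiftRight_eq_div_pow]
  have e : 2 ^ (2 * (k + 1)) = 4 * 2 ^ (2 * k) := by
    rw [Nat.mul_succ, pow_add]
    ring
  rw [e, ← Nat.div_div_eq_div_mul]
  have e2 : (x + 4 * p) / 4 = p := by omega
  rw [e2]

theorem ent_pk : ∀ (l : List ℕ), (∀ x ∈ l, x < 4) → ∀ k, ent (pk l) k = l.getD k 0 := by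
  intro l
  induction l with
  | nil => intro _ k; simp [pk, ent]
  | cons x l ih =>
    intro h k
    have hx := h x (by simp)
    cases k with
    | zero =>
      simp only [pk]
      rw [ent_zero _ _ hx]
      simp
    | succ k =>
      simp only [pk]
      rw [ent_succ _ _ _ hx, ih (fun y hy => h y (by simp [hy]))]
      simp

/-- An entry of a product. -/
def dt (A B i j : ℕ) : ℕ :=
  (ent A (7 * i) * ent B (7 * 0 + j) + ent A (7 * i + 1) * ent B (7 * 1 + j) +
    ent A (7 * i + 2) * ent B (7 * 2 + j) + ent A (7 * i + 3) * ent B (7 * 3 + j) +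
    ent A (7 * i + 4) * ent B (7 * 4 + j) + ent A (7 * i + 5) * ent B (7 * 5 + j) +
    ent A (7 * i + 6) * ent B (7 * 6 + j)) % 3

/-- The product of packed matrices. -/
def mm (A B : ℕ) : ℕ := pk ((List.range 49).map fun e => dt A B (e / 7) (e % 7))

theorem dt_lt (A B i j : ℕ) : dt A B i j < 3 := Nat.mod_lt _ (by norm_num)

theorem ent_mm (A B : ℕ) {i j : ℕ} (hi : i < 7) (hj : j < 7) : ent (mm A B) (7 * i + j) = dt A B i j := by
  have h1 : ∀ x ∈ (List.range 49).map (fun e => dt A B (e / 7) (e % 7)), x < 4 := by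
    intro x hx
    obtain ⟨e, _, rfl⟩ := List.mem_map.1 hx
    have := dt_lt A B (e / 7) (e % 7)
    omega
  have h2 : 7 * i + j < 49 := by omega
  rw [mm, ent_pk _ h1, List.getD_eq_getElem _ _ (by simpa using h2)]
  simp only [List.getElem_map, List.getElem_range]
  congr 1
  · omega
  · omega

/-- The matrix of a code. -/
def toMat (A : ℕ) : Matrix (Fin 7) (Fin 7) (ZMod 3) :=
  Matrix.of fun i j => ((ent A (7 * (i : ℕ) + j) : ℕ) : ZMod 3)

theorem toMat_mm (A B : ℕ) : toMat (mm A B) = toMat A * toMat B := by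
  ext i j
  rw [Matrix.mul_apply, Fin.sum_univ_seven]
  simp only [toMat, Matrix.of_apply]
  rw [ent_mm A B i.2 j.2, dt, ZMod.natCast_mod]
  push_cast
  simp only [Fin.val_zero, Fin.val_one, Fin.val_two]
  rfl

/-- Forcing the evaluation of a number. -/
def force (n : ℕ) (f : ℕ → Bool) : Bool := Nat.casesOn n (f 0) (fun m => f (m + 1))

theorem force_eq (n : ℕ) (f : ℕ → Bool) : force n f = f n := by
  cases n <;> rfl

/-- The digits of a vector. -/
def dg (c k : ℕ) : ℕ := c / 3 ^ k % 3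

/-- The vector of a code. -/
def vec (c : ℕ) : Fin 7 → ZMod 3 := fun i => ((dg c i : ℕ) : ZMod 3)

theorem vec_surj (v : Fin 7 → ZMod 3) : ∃ c < 2187, vec c = v := by
  classical
  let b : ℕ → ℕ := fun i => if h : i < 7 then (v ⟨i, h⟩).val else 0
  have hb : ∀ i, b i < 3 := by
    intro i
    by_cases h : i < 7
    · simp only [b, dif_pos h]
      exact ZMod.val_lt _
    · simp only [b, dif_neg h]
      norm_num
  obtain ⟨c, hc, hd⟩ := Cfsg.Agent.Lib.KnownSimple.LabSU.exists_code (by norm_num : 0 < 3) b hb 7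
  refine ⟨c, by simpa using hc, ?_⟩
  ext i
  simp only [vec, dg]
  rw [hd i i.2]
  simp only [b, dif_pos i.2]
  simp

theorem vec_inj {c d : ℕ} (hc : c < 2187) (hd : d < 2187) (h : vec c = vec d) : c = d := by
  have hsurj : Function.Surjective (fun x : Fin 2187 => vec x.1) := by
    intro v
    obtain ⟨c, hc, e⟩ := vec_surj v
    exact ⟨⟨c, hc⟩, e⟩
  have hcard : Nat.card (Fin 7 → ZMod 3) = 2187 := by
    simp [Nat.card_eq_fintype_card, ZMod.card]
  have hinj : Function.Injective (fun x : Fin 2187 => vec x.1) := by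
    apply (Function.Surjective.bijective_of_nat_card_le hsurj ?_).1
    rw [hcard, Nat.card_eq_fintype_card, Fintype.card_fin]
  have := hinj (a₁ := ⟨c, hc⟩) (a₂ := ⟨d, hd⟩) h
  exact congrArg Fin.val this

/-- Packing of digits. -/
def pk3 : List ℕ → ℕ
  | [] => 0
  | x :: l => x + 3 * pk3 l

theorem dg_pk3 : ∀ (l : List ℕ), (∀ x ∈ l, x < 3) → ∀ k, dg (pk3 l) k = l.getD k 0 := by
  intro l
  induction l with
  | nil => intro _ k; simp [pk3, dg]
  | cons x l ih =>
    intro h k
    have hx := h x (by simp)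
    cases k with
    | zero =>
      simp only [pk3, dg, pow_zero, Nat.div_one, List.getD_cons_zero]
      omega
    | succ k =>
      have e : dg (pk3 (x :: l)) (k + 1) = dg (pk3 l) k := by
        simp only [pk3, dg]
        rw [pow_succ', ← Nat.div_div_eq_div_mul]
        congr 2
        omega
      rw [e, ih (fun y hy => h y (by simp [hy]))]
      simp

/-- A coordinate of a matrix applied to a vector. -/
def ar (A c i : ℕ) : ℕ :=
  (ent A (7 * i) * dg c 0 + ent A (7 * i + 1) * dg c 1 + ent A (7 * i + 2) * dg c 2 +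
    ent A (7 * i + 3) * dg c 3 + ent A (7 * i + 4) * dg c 4 + ent A (7 * i + 5) * dg c 5 +
    ent A (7 * i + 6) * dg c 6) % 3

/-- A matrix applied to a vector. -/
def ac (A c : ℕ) : ℕ := pk3 [ar A c 0, ar A c 1, ar A c 2, ar A c 3, ar A c 4, ar A c 5, ar A c 6]

theorem ar_lt (A c i : ℕ) : ar A c i < 3 := Nat.mod_lt _ (by norm_num)

theorem dg_ac (A c : ℕ) {i : ℕ} (hi : i < 7) : dg (ac A c) i = ar A c i := by
  rw [ac, dg_pk3]
  · interval_cases i <;> rfl
  · intro x hx
    simp only [List.mem_cons, List.not_mem_nil, or_false] at hx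
    rcases hx with rfl | rfl | rfl | rfl | rfl | rfl | rfl <;> exact ar_lt _ _ _

theorem vec_ac (A c : ℕ) : vec (ac A c) = toMat A *ᵥ vec c := by
  ext i
  simp only [vec, Matrix.mulVec, dotProduct, Fin.sum_univ_seven, toMat, Matrix.of_apply]
  rw [dg_ac A c i.2, ar, ZMod.natCast_mod]
  push_cast
  simp only [Fin.val_zero, Fin.val_one, Fin.val_two, add_zero]
  rfl

theorem ac_lt_of {A c : ℕ} : ac A c < 2187 := by
  have h0 := ar_lt A c 0
  have h1 := ar_lt A c 1
  have h2 := ar_lt A c 2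
  have h3 := ar_lt A c 3
  have h4 := ar_lt A c 4
  have h5 := ar_lt A c 5
  have h6 := ar_lt A c 6
  simp only [ac, pk3]
  omega

/-- The polar form in coordinates. -/
def B7 (u v : Fin 7 → ZMod 3) : ZMod 3 :=
  2 * u 0 * v 0 + (u 1 * v 4 + u 4 * v 1) + (u 2 * v 5 + u 5 * v 2) + (u 3 * v 6 + u 6 * v 3)

/-- The quadratic form in coordinates. -/
def Q7 (u : Fin 7 → ZMod 3) : ZMod 3 := u 0 ^ 2 + u 1 * u 4 + u 2 * u 5 + u 3 * u 6

theorem B7_eq (u v : Fin 7 → ZMod 3) : B7 u v = Q7 (u + v) - Q7 u - Q7 v := by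
  simp only [B7, Q7, Pi.add_apply]
  ring

/-- The polar form on codes. -/
def bf (c d : ℕ) : ℕ :=
  (2 * dg c 0 * dg d 0 + (dg c 1 * dg d 4 + dg c 4 * dg d 1) + (dg c 2 * dg d 5 + dg c 5 * dg d 2) +
    (dg c 3 * dg d 6 + dg c 6 * dg d 3)) % 3

theorem B7_vec (c d : ℕ) : B7 (vec c) (vec d) = ((bf c d : ℕ) : ZMod 3) := by
  rw [bf, ZMod.natCast_mod]
  simp only [B7, vec]
  push_cast
  rfl

/-- The quadratic form on codes. -/
def qf (c : ℕ) : ℕ :=
  (dg c 0 ^ 2 + dg c 1 * dg c 4 + dg c 2 * dg c 5 + dg c 3 * dg c 6) % 3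

theorem Q7_vec (c : ℕ) : Q7 (vec c) = ((qf c : ℕ) : ZMod 3) := by
  rw [qf, ZMod.natCast_mod]
  simp only [Q7, vec]
  push_cast
  rfl

/-- Different elements of the field, as codes. -/
def neF (a b : ℕ) : Bool := !(Nat.beq (a % 3) (b % 3))

theorem ne_of_neF {a b : ℕ} (h : neF a b = true) : ((a : ℕ) : ZMod 3) ≠ (b : ZMod 3) := by
  simp only [neF, Bool.not_eq_true', Nat.beq_eq_true_eq, ne_eq] at h
  intro e
  rw [ZMod.natCast_eq_natCast_iff'] at e
  rw [e, Nat.beq_refl] at h
  exact absurd h (by simp)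

end Cfsg.Agent.Lib.O73Cl
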