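import Mathlib
import Cfsg.Agent.Lib.O73Cl.Code

/-!
# Normal forms in a group with a chain of normal subgroups of index three; walking over the normal forms
-/

set_option autoImplicit false
set_option linter.unusedSimpArgs false
set_option linter.unusedVariables false
set_option linter.unusedSectionVars false
set_option linter.style.haveILetI false

namespace Cfsg.Agent.Lib.O73Cl

open Matrix

section monoid

variable {M : Type*} [Monoid M]

/-- The normal form with the digits of a number in base three. -/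
def elG : List M → ℕ → M
  | [], _ => 1
  | y :: l, a => y ^ (a / 3 ^ l.length) * elG l (a % 3 ^ l.length)

theorem elG_append : ∀ (l₁ l₂ : List M) (a : ℕ), a < 3 ^ l₂.length →
    elG (l₁ ++ l₂) (a) = elG l₁ 0 * elG l₂ a := by
  intro l₁ l₂ a h
  induction l₁ with
  | nil => simp [elG]
  | cons y l₁ ih =>
    have hpos : 0 < 3 ^ (l₁.length + l₂.length) := by positivity
    have hle : 3 ^ l₂.length ≤ 3 ^ (l₁.length + l₂.length) :=
      Nat.pow_le_pow_right (by norm_num) (by omega)
    simp only [List.cons_append, elG, List.length_append]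
    rw [Nat.div_eq_of_lt (by omega), Nat.mod_eq_of_lt (by omega), ih]
    simp [Nat.zero_div]

theorem elG_append' (l₁ l₂ : List M) (a : ℕ) (ha : a < 3 ^ (l₁.length + l₂.length)) :
    elG (l₁ ++ l₂) a = elG l₁ (a / 3 ^ l₂.length) * elG l₂ (a % 3 ^ l₂.length) := by
  induction l₁ generalizing a with
  | nil =>
    simp only [List.length_nil, zero_add] at ha
    simp [elG, Nat.mod_eq_of_lt ha]
  | cons y l₁ ih =>
    simp only [List.cons_append, elG, List.length_append]
    have h3 : 0 < 3 ^ (l₁.length + l₂.length) := by positivity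
    rw [ih _ (Nat.mod_lt _ h3)]
    have e1 : a % 3 ^ (l₁.length + l₂.length) / 3 ^ l₂.length = a / 3 ^ l₂.length % 3 ^ l₁.length := by
      rw [add_comm, pow_add, Nat.mod_mul_right_div_self]
    have e2 : a % 3 ^ (l₁.length + l₂.length) % 3 ^ l₂.length = a % 3 ^ l₂.length :=
      Nat.mod_mod_of_dvd _ (pow_dvd_pow _ (by omega))
    have e3 : a / 3 ^ (l₁.length + l₂.length) = a / 3 ^ l₂.length / 3 ^ l₁.length := by
      rw [Nat.div_div_eq_div_mul, add_comm, pow_add]
    rw [e1, e2, e3, mul_assoc]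

theorem map_elG {N : Type*} [Monoid N] (f : M →* N) : ∀ (l : List M) (a : ℕ),
    f (elG l a) = elG (l.map f) a := by
  intro l
  induction l with
  | nil => intro a; simp [elG]
  | cons y l ih =>
    intro a
    simp only [elG, List.map_cons, List.length_map, map_mul, map_pow, ih]

end monoid

section group

variable {G : Type*} [Group G]

/-- The subgroup generated by a list. -/
def subL (l : List G) : Subgroup G := Subgroup.closure {x | x ∈ l}

/-- The relations of a chain. -/
def ChainOK : List G → Prop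
  | [] => True
  | y :: l => y ^ 3 = 1 ∧ (∀ z ∈ l, y * z * y⁻¹ ∈ subL l) ∧ ChainOK l

theorem conj_mem_of {H : Subgroup G} {y : G} {S : Set G} (hH : H = Subgroup.closure S)
    (h : ∀ z ∈ S, y * z * y⁻¹ ∈ H) : ∀ h' ∈ H, y * h' * y⁻¹ ∈ H := by
  intro h' hh
  subst hH
  induction hh using Subgroup.closure_induction with
  | mem x hx => exact h x hx
  | one => simp [one_mem]
  | mul a b _ _ ha hb =>
    have e : y * (a * b) * y⁻¹ = (y * a * y⁻¹) * (y * b * y⁻¹) := by group
    rw [e]
    exact mul_mem ha hb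
  | inv a _ ha =>
    have e : y * a⁻¹ * y⁻¹ = (y * a * y⁻¹)⁻¹ := by group
    rw [e]
    exact inv_mem ha

theorem conj_pow_mem {H : Subgroup G} {y : G} (h : ∀ h' ∈ H, y * h' * y⁻¹ ∈ H) (n : ℕ) :
    ∀ h' ∈ H, y ^ n * h' * (y ^ n)⁻¹ ∈ H := by
  induction n with
  | zero => intro h' hh; simpa using hh
  | succ n ih =>
    intro h' hh
    have e : y ^ (n + 1) * h' * (y ^ (n + 1))⁻¹ = y * (y ^ n * h' * (y ^ n)⁻¹) * y⁻¹ := by
      rw [pow_succ']
      group
    rw [e]
    exact h _ (ih _ hh)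

theorem inv_pow_of_cube {y : G} (h3 : y ^ 3 = 1) (n : ℕ) : (y ^ n)⁻¹ = y ^ (2 * n) := by
  rw [inv_eq_iff_mul_eq_one, ← pow_add]
  have e : n + 2 * n = 3 * n := by ring
  rw [e, pow_mul, h3, one_pow]

theorem chain_step {y : G} {l : List G} (h3 : y ^ 3 = 1) (hz : ∀ z ∈ l, y * z * y⁻¹ ∈ subL l) :
    ∀ t ∈ subL (y :: l), ∃ d : ℕ, d < 3 ∧ ∃ h ∈ subL l, t = y ^ d * h := by
  have hn := conj_mem_of (H := subL l) (S := {x | x ∈ l}) rfl hz
  have key : ∀ t ∈ subL (y :: l), ∃ d : ℕ, ∃ h ∈ subL l, t = y ^ d * h := by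
    intro t ht
    induction ht using Subgroup.closure_induction with
    | mem x hx =>
      rcases List.mem_cons.1 hx with rfl | hx
      · exact ⟨1, 1, one_mem _, by simp⟩
      · exact ⟨0, x, Subgroup.subset_closure hx, by simp⟩
    | one => exact ⟨0, 1, one_mem _, by simp⟩
    | mul a b _ _ ha hb =>
      obtain ⟨d₁, h₁, hh₁, rfl⟩ := ha
      obtain ⟨d₂, h₂, hh₂, rfl⟩ := hb
      have e1 : (y ^ d₂)⁻¹ * h₁ * y ^ d₂ = y ^ (2 * d₂) * h₁ * (y ^ (2 * d₂))⁻¹ := by
        rw [← inv_pow_of_cube h3 d₂, inv_inv]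
      refine ⟨d₁ + d₂, ((y ^ d₂)⁻¹ * h₁ * y ^ d₂) * h₂, mul_mem ?_ hh₂, ?_⟩
      · rw [e1]
        exact conj_pow_mem hn _ _ hh₁
      · rw [pow_add]
        group
    | inv a _ ha =>
      obtain ⟨d, h, hh, rfl⟩ := ha
      refine ⟨2 * d, y ^ d * h⁻¹ * (y ^ d)⁻¹, conj_pow_mem hn _ _ (inv_mem hh), ?_⟩
      rw [← inv_pow_of_cube h3 d]
      group
  intro t ht
  obtain ⟨d, h, hh, rfl⟩ := key t ht
  refine ⟨d % 3, Nat.mod_lt _ (by norm_num), h, hh, ?_⟩
  rw [← pow_eq_pow_mod d h3]

theorem chain_mem : ∀ (l : List G), ChainOK l → ∀ t ∈ subL l, ∃ a < 3 ^ l.length, t = elG l a := by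
  intro l
  induction l with
  | nil =>
    intro _ t ht
    refine ⟨0, by simp, ?_⟩
    have h1 : subL ([] : List G) = ⊥ := by
      simp [subL]
    rw [h1, Subgroup.mem_bot] at ht
    simpa [elG] using ht
  | cons y l ih =>
    rintro ⟨h3, hz, hc⟩ t ht
    obtain ⟨d, hd, h, hh, rfl⟩ := chain_step h3 hz t ht
    obtain ⟨a, ha, rfl⟩ := ih hc h hh
    refine ⟨d * 3 ^ l.length + a, ?_, ?_⟩
    · simp only [List.length_cons]
      have : (d + 1) * 3 ^ l.length ≤ 3 * 3 ^ l.length := Nat.mul_le_mul_right _ hd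
      rw [pow_succ']
      nlinarith
    · have hpos : 0 < 3 ^ l.length := by positivity
      simp only [elG]
      rw [Nat.add_comm, Nat.add_mul_div_right _ _ hpos, Nat.div_eq_of_lt ha, zero_add,
        Nat.add_mul_mod_self_right, Nat.mod_eq_of_lt ha]

theorem elG_mem : ∀ (l : List G) (a : ℕ), elG l a ∈ subL l := by
  intro l
  induction l with
  | nil => intro a; exact one_mem _
  | cons y l ih =>
    intro a
    simp only [elG]
    have hy : y ∈ subL (y :: l) := Subgroup.subset_closure (by simp)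
    have hle : subL l ≤ subL (y :: l) := Subgroup.closure_mono (fun x hx => List.mem_cons_of_mem _ hx)
    exact mul_mem (pow_mem hy _) (hle (ih _))

end group

/-- Walking over all normal forms. -/
def walkA (f : ℕ → ℕ → Bool) : List ℕ → ℕ → ℕ → Bool
  | [], M, a => f M a
  | y :: l, M, a => walkA f l M (3 * a) &&
      force (mm M y) (fun M1 => walkA f l M1 (3 * a + 1) &&
        force (mm M1 y) (fun M2 => walkA f l M2 (3 * a + 2)))

theorem walkA_spec (f : ℕ → ℕ → Bool) : ∀ (l : List ℕ) (M a₀ : ℕ), walkA f l M a₀ = true →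
    ∀ a < 3 ^ l.length, ∃ C, f C (a₀ * 3 ^ l.length + a) = true ∧
      toMat C = toMat M * elG (l.map toMat) a := by
  intro l
  induction l with
  | nil =>
    intro M a₀ h a ha
    simp only [List.length_nil, pow_zero, Nat.lt_one_iff] at ha
    subst ha
    refine ⟨M, ?_, by simp [elG]⟩
    simpa [walkA] using h
  | cons y l ih =>
    intro M a₀ h a ha
    simp only [walkA, force_eq, Bool.and_eq_true] at h
    obtain ⟨h0, h1, h2⟩ := h
    have hpos : 0 < 3 ^ l.length := by positivity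
    simp only [List.length_cons] at ha ⊢
    have hd : a / 3 ^ l.length < 3 := by
      rw [pow_succ] at ha
      exact Nat.div_lt_of_lt_mul ha
    have hr : a % 3 ^ l.length < 3 ^ l.length := Nat.mod_lt _ hpos
    have hdiv := Nat.div_add_mod' a (3 ^ l.length)
    obtain ⟨d, hdd⟩ : ∃ d, d = a / 3 ^ l.length := ⟨_, rfl⟩
    obtain ⟨r, hrr⟩ : ∃ r, r = a % 3 ^ l.length := ⟨_, rfl⟩
    rw [← hdd] at hd hdiv
    rw [← hrr] at hr hdiv
    have hel : elG ((y :: l).map toMat) a = toMat y ^ d * elG (l.map toMat) r := by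
      simp only [List.map_cons, elG, List.length_map]
      rw [← hdd, ← hrr]
    have hexp : ∀ k, (3 * a₀ + k) * 3 ^ l.length + r = a₀ * 3 ^ (l.length + 1) + (k * 3 ^ l.length + r) := by
      intro k
      rw [pow_succ]
      ring
    rw [hel, ← hdiv]
    interval_cases d
    · obtain ⟨C, hC, hm⟩ := ih M _ h0 r hr
      refine ⟨C, ?_, by rw [hm]; simp⟩
      have := hexp 0
      simp only [add_zero] at this
      rw [show a₀ * 3 ^ (l.length + 1) + (0 * 3 ^ l.length + r) = 3 * a₀ * 3 ^ l.length + r by rw [this]]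
      exact hC
    · obtain ⟨C, hC, hm⟩ := ih _ _ h1 r hr
      refine ⟨C, ?_, ?_⟩
      · rw [← hexp 1]
        exact hC
      · rw [hm, toMat_mm, pow_one, mul_assoc]
    · obtain ⟨C, hC, hm⟩ := ih _ _ h2 r hr
      refine ⟨C, ?_, ?_⟩
      · rw [← hexp 2]
        exact hC
      · rw [hm, toMat_mm, toMat_mm, pow_two, mul_assoc, mul_assoc, mul_assoc]

end Cfsg.Agent.Lib.O73Cl
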