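import Mathlib
import Cfsg.Agent.Lib.O73Cl.Abs
import Cfsg.Agent.Lib.O73Cl.DataK

/-!
# The centralizer of the element of the split class
-/

set_option autoImplicit false
set_option maxRecDepth 100000
set_option linter.unusedSimpArgs false
set_option linter.unusedVariables false
set_option linter.unusedSectionVars false
set_option linter.style.haveILetI false

namespace Cfsg.Agent.Lib.O73Cl

open Subgroup Matrix
open Cfsg.Agent.Lib.KnownSimple.Lab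

section

variable {O' : Type*} [Group O'] (ρ : O' →* Matrix (Fin 7) (Fin 7) (ZMod 3))

/-- Commuting with the element and fixing some vectors. -/
def Fx (pins : List ℕ) (k : O') : Prop :=
  ρ k * toMat X0 = toMat X0 * ρ k ∧ ∀ p ∈ pins, ρ k *ᵥ vec p = vec p

theorem rho_inv_mulVec (k : O') (u : Fin 7 → ZMod 3) : ρ k⁻¹ *ᵥ (ρ k *ᵥ u) = u := by
  rw [Matrix.mulVec_mulVec, ← map_mul, inv_mul_cancel, map_one, Matrix.one_mulVec]

theorem rho_mulVec_inv (k : O') (u : Fin 7 → ZMod 3) : ρ k *ᵥ (ρ k⁻¹ *ᵥ u) = u := by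
  rw [Matrix.mulVec_mulVec, ← map_mul, mul_inv_cancel, map_one, Matrix.one_mulVec]

theorem Fx_mul {pins : List ℕ} {a b : O'} (ha : Fx ρ pins a) (hb : Fx ρ pins b) : Fx ρ pins (a * b) := by
  refine ⟨?_, ?_⟩
  · rw [map_mul, mul_assoc, hb.1, ← mul_assoc, ha.1, mul_assoc]
  · intro p hp
    rw [map_mul, ← Matrix.mulVec_mulVec, hb.2 p hp, ha.2 p hp]

theorem Fx_inv {pins : List ℕ} {a : O'} (ha : Fx ρ pins a) : Fx ρ pins a⁻¹ := by
  have e1 : ρ a⁻¹ * ρ a = 1 := by rw [← map_mul, inv_mul_cancel, map_one]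
  have e2 : ρ a * ρ a⁻¹ = 1 := by rw [← map_mul, mul_inv_cancel, map_one]
  refine ⟨?_, ?_⟩
  · calc ρ a⁻¹ * toMat X0 = ρ a⁻¹ * (toMat X0 * (ρ a * ρ a⁻¹)) := by rw [e2, mul_one]
      _ = ρ a⁻¹ * (toMat X0 * ρ a) * ρ a⁻¹ := by simp only [mul_assoc]
      _ = ρ a⁻¹ * (ρ a * toMat X0) * ρ a⁻¹ := by rw [ha.1]
      _ = (ρ a⁻¹ * ρ a) * toMat X0 * ρ a⁻¹ := by simp only [mul_assoc]
      _ = toMat X0 * ρ a⁻¹ := by rw [e1, one_mul]
  · intro p hp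
    conv_lhs => rw [← ha.2 p hp]
    exact rho_inv_mulVec ρ a _

theorem Fx_one (pins : List ℕ) : Fx ρ pins (1 : O') := by
  refine ⟨by rw [map_one, one_mul, mul_one], fun p _ => by rw [map_one, Matrix.one_mulVec]⟩

variable (Good : Subgroup O')

/-- The orbit of a vector. -/
theorem tree_reach {pins : List ℕ} {v : ℕ} {L : List ℕ} {T : List (ℕ × ℕ × ℕ)} (hT : chkTree v L T = true)
    (hL : ∀ A ∈ L, ∃ k ∈ Good, Fx ρ pins k ∧ ρ k = toMat A) :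
    ∀ i, i < T.length → ∃ k ∈ Good, Fx ρ pins k ∧ ρ k *ᵥ vec v = vec (T.getD i (0, 0, 0)).1 := by
  simp only [chkTree, Bool.and_eq_true, beq_iff_eq, List.all_eq_true, List.mem_range] at hT
  obtain ⟨h0, h1⟩ := hT
  intro i
  induction i using Nat.strong_induction_on with
  | _ i ih =>
    intro hi
    have h2 := h1 i hi
    simp only [Bool.or_eq_true, Bool.and_eq_true, Nat.beq_eq, Nat.blt_eq] at h2
    rcases h2 with rfl | ⟨⟨h3, h4⟩, h5⟩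
    · exact ⟨1, one_mem _, Fx_one ρ pins, by rw [map_one, Matrix.one_mulVec, h0]⟩
    · obtain ⟨k', hk1, hk2, hk3⟩ := ih _ h3 (by omega)
      obtain ⟨a, ha1, ha2, ha3⟩ := hL (L.getD (T.getD i (0, 0, 0)).2.2 0) (by
        rw [List.getD_eq_getElem _ _ h4]
        exact List.getElem_mem _)
      refine ⟨a * k', mul_mem ha1 hk1, Fx_mul ρ ha2 hk2, ?_⟩
      rw [map_mul, ← Matrix.mulVec_mulVec, hk3, ha3, ← vec_ac, h5]

variable (hB : ∀ (g : O') (u v : Fin 7 → ZMod 3), B7 (ρ g *ᵥ u) (ρ g *ᵥ v) = B7 u v)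
  (hQ : ∀ (g : O') (v : Fin 7 → ZMod 3), Q7 (ρ g *ᵥ v) = Q7 v)

include hB hQ

theorem toMat_X2 : toMat X2 = toMat X0 * toMat X0 := toMat_mm _ _

/-- The signature of an image. -/
theorem sig_of {pins : List ℕ} {c : O'} (hc : Fx ρ pins c) {v w : ℕ} (hv : v < 2187)
    (hw : vec w = ρ c *ᵥ vec v) : sigEq pins w v = true := by
  have hcm : ∀ u : Fin 7 → ZMod 3, toMat X0 *ᵥ (ρ c *ᵥ u) = ρ c *ᵥ (toMat X0 *ᵥ u) := by
    intro u
    rw [Matrix.mulVec_mulVec, Matrix.mulVec_mulVec, hc.1]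
  have hcm2 : ∀ u : Fin 7 → ZMod 3, toMat X2 *ᵥ (ρ c *ᵥ u) = ρ c *ᵥ (toMat X2 *ᵥ u) := by
    intro u
    rw [toMat_X2 ρ hB hQ, ← Matrix.mulVec_mulVec, ← Matrix.mulVec_mulVec, hcm, hcm]
  have hb : ∀ a b a' b' : ℕ, vec a' = ρ c *ᵥ vec a → vec b' = ρ c *ᵥ vec b → bf a' b' = bf a b := by
    intro a b a' b' h1 h2
    apply cast_inj3 (bf_lt _ _) (bf_lt _ _)
    rw [← B7_vec, ← B7_vec, h1, h2, hB]
  have hxw : vec (ac X0 w) = ρ c *ᵥ vec (ac X0 v) := by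
    rw [vec_ac, vec_ac, hw, hcm]
  have hxw2 : vec (ac X2 w) = ρ c *ᵥ vec (ac X2 v) := by
    rw [vec_ac, vec_ac, hw, hcm2]
  simp only [sigEq, Bool.and_eq_true, Nat.beq_eq, List.all_eq_true, Bool.or_eq_true, Bool.not_eq_true']
  refine ⟨⟨⟨⟨?_, ?_⟩, ?_⟩, ?_⟩, ?_⟩
  · apply cast_inj3 (qf_lt _) (qf_lt _)
    rw [← Q7_vec, ← Q7_vec, hw, hQ]
  · exact hb _ _ _ _ hw hxw
  · exact hb _ _ _ _ hw hxw2
  · intro p hp
    have h1 : vec p = ρ c *ᵥ vec p := (hc.2 p hp).symm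
    have h2 : vec (ac X0 p) = ρ c *ᵥ vec (ac X0 p) := by
      rw [vec_ac, ← hcm, ← h1]
    have h3 : vec (ac X2 p) = ρ c *ᵥ vec (ac X2 p) := by
      rw [vec_ac, ← hcm2, ← h1]
    exact ⟨⟨hb _ _ _ _ hw h1, hb _ _ _ _ hw h2⟩, hb _ _ _ _ hw h3⟩
  · by_cases h : ac X0 w = w
    · left
      apply vec_inj ac_lt_of hv
      have h1 : ρ c *ᵥ vec (ac X0 v) = ρ c *ᵥ vec v := by
        rw [← hxw, h, hw]
      have h2 := congrArg (fun u => ρ c⁻¹ *ᵥ u) h1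
      simpa only [rho_inv_mulVec] using h2
    · right
      cases e : Nat.beq (ac X0 w) w with
      | false => rfl
      | true => exact absurd (Nat.eq_of_beq_eq_true e) h

/-- One level. -/
theorem level {pins : List ℕ} {v : ℕ} {L : List ℕ} {T : List (ℕ × ℕ × ℕ)} (hv : v < 2187)
    (hT : chkTree v L T = true) (hL : ∀ A ∈ L, ∃ k ∈ Good, Fx ρ pins k ∧ ρ k = toMat A)
    (hS : allI (chkSig pins v T) 0 2187 = true) {c : O'} (hc : Fx ρ pins c) :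
    ∃ k ∈ Good, Fx ρ pins k ∧ ρ (k⁻¹ * c) *ᵥ vec v = vec v := by
  obtain ⟨w, hw, hwv⟩ := vec_surj (ρ c *ᵥ vec v)
  have h1 := sig_of ρ hB hQ hc hv hwv
  have h2 : chkSig pins v T w = true := of_allI hS w (Nat.zero_le _) (by omega)
  simp only [chkSig, Bool.or_eq_true, Bool.not_eq_true', h1, List.contains_iff_mem, List.mem_map] at h2
  obtain ⟨⟨w', a, b⟩, hm, rfl⟩ := h2.resolve_left (by simp)
  obtain ⟨i, hi, e⟩ := List.mem_iff_getElem.1 hm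
  obtain ⟨k, hk1, hk2, hk3⟩ := tree_reach ρ Good hT hL i hi
  refine ⟨k, hk1, hk2, ?_⟩
  rw [List.getD_eq_getElem _ _ hi, e] at hk3
  rw [map_mul, ← Matrix.mulVec_mulVec]
  show ρ k⁻¹ *ᵥ (ρ c *ᵥ vec v) = vec v
  rw [← hwv, ← hk3]
  exact rho_inv_mulVec ρ k _

theorem ext_col7 {A B : Matrix (Fin 7) (Fin 7) (ZMod 3)}
    (h : ∀ j, A *ᵥ Pi.single j 1 = B *ᵥ Pi.single j 1) : A = B := by
  ext i j
  have h1 := congrFun (h j) i
  simpa [Matrix.mulVec_single_one] using h1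

omit hB hQ in
theorem c_e0 : ∀ j : Fin 7, vec (3 ^ (j : ℕ)) = Pi.single j 1 := by decide +kernel

/-- An element of the centralizer fixing the base vectors is trivial. -/
theorem fix_base {c : O'} (hc : Fx ρ [V1, V2, V3] c) : ρ c = 1 := by
  have hcm : ∀ u : Fin 7 → ZMod 3, toMat X0 *ᵥ (ρ c *ᵥ u) = ρ c *ᵥ (toMat X0 *ᵥ u) := by
    intro u
    rw [Matrix.mulVec_mulVec, Matrix.mulVec_mulVec, hc.1]
  have hcm2 : ∀ u : Fin 7 → ZMod 3, toMat X2 *ᵥ (ρ c *ᵥ u) = ρ c *ᵥ (toMat X2 *ᵥ u) := by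
    intro u
    rw [toMat_X2 ρ hB hQ, ← Matrix.mulVec_mulVec, ← Matrix.mulVec_mulVec, hcm, hcm]
  have f1 : ρ c *ᵥ vec V1 = vec V1 := hc.2 V1 (by simp)
  have f2 : ρ c *ᵥ vec V2 = vec V2 := hc.2 V2 (by simp)
  have f3 : ρ c *ᵥ vec V3 = vec V3 := hc.2 V3 (by simp)
  have fX : ∀ p, ρ c *ᵥ vec p = vec p → ρ c *ᵥ vec (ac X0 p) = vec (ac X0 p) := by
    intro p hp
    rw [vec_ac, ← hcm, hp]
  have fX2 : ∀ p, ρ c *ᵥ vec p = vec p → ρ c *ᵥ vec (ac X2 p) = vec (ac X2 p) := by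
    intro p hp
    rw [vec_ac, ← hcm2, hp]
  obtain ⟨k0, k1, k2, k3, k4, k5, k6⟩ := c_Pcol
  have hP : ρ c * toMat PC = toMat PC := by
    apply ext_col7 ρ hB hQ
    intro j
    rw [← Matrix.mulVec_mulVec, ← c_e0 j, ← vec_ac]
    fin_cases j
    · show ρ c *ᵥ vec (ac PC 1) = vec (ac PC 1)
      rw [k0]; exact f1
    · show ρ c *ᵥ vec (ac PC 3) = vec (ac PC 3)
      rw [k1]; exact fX _ f1
    · show ρ c *ᵥ vec (ac PC 9) = vec (ac PC 9)
      rw [k2]; exact fX2 _ f1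
    · show ρ c *ᵥ vec (ac PC 27) = vec (ac PC 27)
      rw [k3]; exact f2
    · show ρ c *ᵥ vec (ac PC 81) = vec (ac PC 81)
      rw [k4]; exact fX _ f2
    · show ρ c *ᵥ vec (ac PC 243) = vec (ac PC 243)
      rw [k5]; exact f3
    · show ρ c *ᵥ vec (ac PC 729) = vec (ac PC 729)
      rw [k6]; exact fX _ f3
  have hPI : toMat PC * toMat PI = 1 := by
    rw [← toMat_mm, c_P, c_ID]
  calc ρ c = ρ c * (toMat PC * toMat PI) := by rw [hPI, mul_one]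
    _ = (ρ c * toMat PC) * toMat PI := by rw [mul_assoc]
    _ = 1 := by rw [hP, hPI]

variable (hinj : Function.Injective ρ) (hGood : ∀ A ∈ GL1 ++ GL2 ++ GL3, ∃ k ∈ Good, ρ k = toMat A)

include hinj hGood

/-- The centralizer lies in the subgroup. -/
theorem main_pair {c : O'} (hc : ρ c * toMat X0 = toMat X0 * ρ c) : c ∈ Good := by
  have hcomm : ∀ A ∈ GL1 ++ GL2 ++ GL3, toMat A * toMat X0 = toMat X0 * toMat A := by
    intro A hA
    rw [← toMat_mm, ← toMat_mm, c_G A hA]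
  -- level one
  have hL1 : ∀ A ∈ GL1, ∃ k ∈ Good, Fx ρ [] k ∧ ρ k = toMat A := by
    intro A hA
    have hA' : A ∈ GL1 ++ GL2 ++ GL3 := by simp [hA]
    obtain ⟨k, hk, e⟩ := hGood A hA'
    exact ⟨k, hk, ⟨by rw [e]; exact hcomm A hA', by simp⟩, e⟩
  have hL2 : ∀ A ∈ GL2, ∃ k ∈ Good, Fx ρ [V1] k ∧ ρ k = toMat A := by
    intro A hA
    have hA' : A ∈ GL1 ++ GL2 ++ GL3 := by simp [hA]
    obtain ⟨k, hk, e⟩ := hGood A hA'
    refine ⟨k, hk, ⟨by rw [e]; exact hcomm A hA', ?_⟩, e⟩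
    intro p hp
    rw [List.mem_singleton] at hp
    subst hp
    rw [e, ← vec_ac, c_G2 A hA]
  have hL3 : ∀ A ∈ GL3, ∃ k ∈ Good, Fx ρ [V1, V2] k ∧ ρ k = toMat A := by
    intro A hA
    have hA' : A ∈ GL1 ++ GL2 ++ GL3 := by simp [hA]
    obtain ⟨k, hk, e⟩ := hGood A hA'
    refine ⟨k, hk, ⟨by rw [e]; exact hcomm A hA', ?_⟩, e⟩
    intro p hp
    simp only [List.mem_cons, List.not_mem_nil, or_false] at hp
    rcases hp with rfl | rfl
    · rw [e, ← vec_ac, (c_G1 A hA).1]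
    · rw [e, ← vec_ac, (c_G1 A hA).2]
  have hV1 : V1 < 2187 := by decide +kernel
  have hV2 : V2 < 2187 := by decide +kernel
  have hV3 : V3 < 2187 := by decide +kernel
  have h0 : Fx ρ [] c := ⟨hc, by simp⟩
  obtain ⟨k1, hk1, hk1x, e1⟩ := level ρ Good hB hQ hV1 c_T1 hL1 c_S1 h0
  have h1 : Fx ρ [V1] (k1⁻¹ * c) := by
    have := Fx_mul ρ (Fx_inv ρ hk1x) h0
    refine ⟨this.1, ?_⟩
    intro p hp
    rw [List.mem_singleton] at hp
    subst hp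
    exact e1
  obtain ⟨k2, hk2, hk2x, e2⟩ := level ρ Good hB hQ hV2 c_T2 hL2 c_S2 h1
  have h2 : Fx ρ [V1, V2] (k2⁻¹ * (k1⁻¹ * c)) := by
    have := Fx_mul ρ (Fx_inv ρ hk2x) h1
    refine ⟨this.1, ?_⟩
    intro p hp
    simp only [List.mem_cons, List.not_mem_nil, or_false] at hp
    rcases hp with rfl | rfl
    · exact this.2 _ (by simp)
    · exact e2
  obtain ⟨k3, hk3, hk3x, e3⟩ := level ρ Good hB hQ hV3 c_T3 hL3 c_S3 h2
  have h3 : Fx ρ [V1, V2, V3] (k3⁻¹ * (k2⁻¹ * (k1⁻¹ * c))) := by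
    have := Fx_mul ρ (Fx_inv ρ hk3x) h2
    refine ⟨this.1, ?_⟩
    intro p hp
    simp only [List.mem_cons, List.not_mem_nil, or_false] at hp
    rcases hp with rfl | rfl | rfl
    · exact this.2 _ (by simp)
    · exact this.2 _ (by simp)
    · exact e3
  have h4 := fix_base ρ hB hQ h3
  have h5 : k3⁻¹ * (k2⁻¹ * (k1⁻¹ * c)) = 1 := hinj (by rw [h4, map_one])
  have h6 : c = k1 * (k2 * k3) := by
    have e : c = k1 * (k2 * (k3 * (k3⁻¹ * (k2⁻¹ * (k1⁻¹ * c))))) := by group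
    rw [h5, mul_one] at e
    exact e
  rw [h6]
  exact mul_mem hk1 (mul_mem hk2 hk3)

end

end Cfsg.Agent.Lib.O73Cl
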