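import Mathlib
import Cfsg.Agent.Lib.O73Cl.Pair
import Cfsg.Agent.Lib.Spinor.Dickson
import Cfsg.Agent.Lib.Spinor.Norm
import Cfsg.Agent.Lib.Classical.OrthCenter
import Cfsg.Agent.Lib.Classical.OrthOrder
import Cfsg.Agent.S0292

/-!
# The simple orthogonal group of dimension seven over the field with three elements has seven classes of subgroups of order three
-/

set_option autoImplicit false
set_option maxRecDepth 100000
set_option linter.unusedSimpArgs false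
set_option linter.unusedVariables false
set_option linter.unusedSectionVars false
set_option linter.style.haveILetI false

namespace Cfsg.Agent.Lib.O73Cl

open Subgroup Matrix Cfsg.Agent.Lib.Classical Cfsg.Agent.Lib.ClassMax.OmegaCore
open Cfsg.Agent.Lib.Spinor (rO lp nm rr lp_append nm_append exists_lp lp_mem_omega lp_mem_omega_iff lp_cons lp_nil rO_mat lp_mat det_list_prod)

/-- The index type. -/
abbrev Iq : Type := Unit ⊕ (Fin 3 ⊕ Fin 3)

/-- The numbering of the indices. -/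
def ordO : Iq → Fin 7
  | .inl _ => 0
  | .inr (.inl i) => ⟨1 + i.1, by omega⟩
  | .inr (.inr i) => ⟨4 + i.1, by omega⟩

/-- The numbering of the indices. -/
def ordI : Fin 7 → Iq :=
  ![.inl (), .inr (.inl 0), .inr (.inl 1), .inr (.inl 2), .inr (.inr 0), .inr (.inr 1), .inr (.inr 2)]

/-- The numbering of the indices. -/
def ordE : Fin 7 ≃ Iq := ⟨ordI, ordO, by decide, by decide⟩

/-- The matrix of the form. -/
def S7 : Matrix (Fin 7) (Fin 7) (ZMod 3) :=
  !![2, 0, 0, 0, 0, 0, 0; 0, 0, 0, 0, 1, 0, 0; 0, 0, 0, 0, 0, 1, 0; 0, 0, 0, 0, 0, 0, 1;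
     0, 1, 0, 0, 0, 0, 0; 0, 0, 1, 0, 0, 0, 0; 0, 0, 0, 1, 0, 0, 0]

theorem B7_S (u v : Fin 7 → ZMod 3) : B7 u v = u ⬝ᵥ (S7 *ᵥ v) := by
  simp only [B7, S7, dotProduct, mulVec, Fin.sum_univ_seven]
  simp
  ring

theorem Q7_B7 (w : Fin 7 → ZMod 3) : Q7 w = 2 * B7 w w := by
  have h3 : (3 : ZMod 3) = 0 := rfl
  simp only [Q7, B7]
  linear_combination (-(w 0 ^ 2 + w 1 * w 4 + w 2 * w 5 + w 3 * w 6)) * h3

theorem iso_of_S {M : Matrix (Fin 7) (Fin 7) (ZMod 3)} (h : Mᵀ * S7 * M = S7) (v : Fin 7 → ZMod 3) :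
    Q7 (M *ᵥ v) = Q7 v := by
  have e : (Mᵀ * S7 * M) *ᵥ v = Mᵀ *ᵥ (S7 *ᵥ (M *ᵥ v)) := by
    rw [Matrix.mulVec_mulVec, Matrix.mulVec_mulVec, mul_assoc]
  have key : (M *ᵥ v) ⬝ᵥ (S7 *ᵥ (M *ᵥ v)) = v ⬝ᵥ (S7 *ᵥ v) := by
    conv_rhs => rw [← h, e, Matrix.dotProduct_mulVec, Matrix.vecMul_transpose]
  rw [Q7_B7, Q7_B7, B7_S, B7_S, key]

theorem c_iso : ∀ A ∈ RL ++ GL1 ++ GL2 ++ GL3 ++ [HC], (toMat A)ᵀ * S7 * toMat A = S7 := by decide +kernel

theorem c_NEG : toMat NEG = -1 := by decide +kernel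

theorem h_two : (2 : ZMod 3) ≠ 0 := by decide

section form

variable (Q : QuadraticForm (ZMod 3) (Iq → ZMod 3)) (hQ : ⇑Q = Cfsg.quadFormOdd 3 (ZMod 3))

/-- The group acting in numbered coordinates. -/
noncomputable def rho0 : OG Q →* Matrix (Fin 7) (Fin 7) (ZMod 3) where
  toFun g := (oM g).submatrix ordE ordE
  map_one' := by
    show ((1 : Matrix Iq Iq (ZMod 3))).submatrix ordE ordE = 1
    exact Matrix.submatrix_one_equiv _
  map_mul' a b := by
    show (oM a * oM b).submatrix ordE ordE = _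
    exact (Matrix.submatrix_mul_equiv _ _ _ _ _).symm

theorem rho0_mulVec (g : OG Q) (v : Fin 7 → ZMod 3) :
    rho0 Q g *ᵥ v = (oM g *ᵥ (v ∘ ordE.symm)) ∘ ordE := by
  show (oM g).submatrix ordE ordE *ᵥ v = _
  rw [Matrix.submatrix_mulVec_equiv]

include hQ

theorem Q_eq_Q7 (v : Fin 7 → ZMod 3) : Q (v ∘ ordE.symm) = Q7 v := by
  have h : Q (v ∘ ordE.symm) = Cfsg.quadFormOdd 3 (ZMod 3) (v ∘ ordE.symm) := congrFun hQ _
  rw [h]
  simp only [Cfsg.quadFormOdd, Fin.sum_univ_three, Function.comp, Q7]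
  show v 0 ^ 2 + (v 1 * v 4 + v 2 * v 5 + v 3 * v 6) = _
  ring

theorem hQ0 (g : OG Q) (v : Fin 7 → ZMod 3) : Q7 (rho0 Q g *ᵥ v) = Q7 v := by
  rw [← Q_eq_Q7 Q hQ, ← Q_eq_Q7 Q hQ v, rho0_mulVec]
  have e : ((oM g *ᵥ (v ∘ ordE.symm)) ∘ ordE) ∘ ordE.symm = oM g *ᵥ (v ∘ ordE.symm) := by
    ext i
    simp
  rw [e]
  exact (mem_iso_iff _).1 g.2 _

theorem hB0 (g : OG Q) (u v : Fin 7 → ZMod 3) : B7 (rho0 Q g *ᵥ u) (rho0 Q g *ᵥ v) = B7 u v := by
  rw [B7_eq, B7_eq, ← Matrix.mulVec_add, hQ0 Q hQ, hQ0 Q hQ, hQ0 Q hQ]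

omit hQ in
theorem rho0_inj : Function.Injective (rho0 Q) := by
  intro a b e
  apply Subtype.ext
  apply Units.ext
  ext i j
  have h := congrFun (congrFun e (ordE.symm i)) (ordE.symm j)
  simpa [rho0] using h

theorem exists_og {M M' : Matrix (Fin 7) (Fin 7) (ZMod 3)} (h1 : M * M' = 1) (h2 : M' * M = 1)
    (hiso : ∀ v, Q7 (M *ᵥ v) = Q7 v) : ∃ g : OG Q, rho0 Q g = M := by
  have e1 : M.submatrix ordE.symm ordE.symm * M'.submatrix ordE.symm ordE.symm = 1 := by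
    rw [Matrix.submatrix_mul_equiv, h1, Matrix.submatrix_one_equiv]
  have e2 : M'.submatrix ordE.symm ordE.symm * M.submatrix ordE.symm ordE.symm = 1 := by
    rw [Matrix.submatrix_mul_equiv, h2, Matrix.submatrix_one_equiv]
  refine ⟨⟨⟨M.submatrix ordE.symm ordE.symm, M'.submatrix ordE.symm ordE.symm, e1, e2⟩,
    (mem_iso_iff _).2 ?_⟩, ?_⟩
  · intro v
    show Q (M.submatrix ordE.symm ordE.symm *ᵥ v) = Q v
    rw [Matrix.submatrix_mulVec_equiv]
    have e : v = (v ∘ ordE) ∘ ordE.symm := by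
      ext i
      simp
    have e' : v ∘ ordE.symm.symm = v ∘ ordE := rfl
    rw [e', Q_eq_Q7 Q hQ, hiso]
    conv_rhs => rw [e]
    rw [Q_eq_Q7 Q hQ]
  · ext i j
    show (M.submatrix ordE.symm ordE.symm) (ordE i) (ordE j) = _
    simp

/-- The elements from codes of the test list. -/
theorem exists_cube {A : ℕ} (h3 : mm A (mm A A) = ID)
    (hS : (toMat A)ᵀ * S7 * toMat A = S7) : ∃ g : OG Q, rho0 Q g = toMat A := by
  have e : toMat A * (toMat A * toMat A) = 1 := by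
    rw [← toMat_mm, ← toMat_mm, h3, c_ID]
  refine exists_og Q hQ (M' := toMat A * toMat A) e ?_ (iso_of_S hS)
  rw [mul_assoc, e]

variable (hnd : (QuadraticMap.polarBilin Q).Nondegenerate)

include hnd

theorem hq3 : Fintype.card (ZMod 3) ≠ 2 ∨ Fintype.card Iq ≠ 4 := by
  left
  rw [ZMod.card]
  norm_num

theorem sq_mem (g : OG Q) : g * g ∈ Cfsg.Omega (ZMod 3) ⇑Q := by
  obtain ⟨vs, hv, rfl⟩ := exists_lp hnd (hq3 Q hQ hnd) g
  rw [← lp_append]
  apply lp_mem_omega hnd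
  · intro v hv'
    rcases List.mem_append.1 hv' with h | h <;> exact hv v h
  · rw [List.length_append]
    exact Even.add_self _
  · rw [nm_append]
    exact ⟨_, rfl⟩

theorem cube_mem {g : OG Q} (h : g ^ 3 = 1) : g ∈ Cfsg.Omega (ZMod 3) ⇑Q := by
  have e : g = (g * g) * (g * g) := by
    calc g = g ^ 3 * g := by rw [h, one_mul]
      _ = (g * g) * (g * g) := by simp only [pow_succ, pow_zero, one_mul, mul_assoc]
  rw [e]
  exact sq_mem Q hQ hnd _

/-- The group acting on numbered coordinates. -/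
noncomputable def rhoO : ↥(Cfsg.Omega (ZMod 3) ⇑Q) →* Matrix (Fin 7) (Fin 7) (ZMod 3) :=
  (rho0 Q).comp (Cfsg.Omega (ZMod 3) ⇑Q).subtype

omit hQ hnd in
theorem rhoO_inj : Function.Injective (rhoO Q) := by
  intro a b e
  exact Subtype.ext (rho0_inj Q e)

/-- The root elements lie in the group. -/
theorem hRO : ∀ y ∈ RL, InG (rhoO Q) y := by
  intro y hy
  obtain ⟨g, hg⟩ := exists_cube Q hQ (c_RL3 y hy) (c_iso y (by simp [hy]))
  have h3 : g ^ 3 = 1 := by
    apply rho0_inj Q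
    rw [map_pow, hg, map_one, pow_succ', pow_two, ← toMat_mm, ← toMat_mm, c_RL3 y hy, c_ID]
  exact ⟨⟨g, cube_mem Q hQ hnd h3⟩, hg⟩

/-- The order of the group. -/
theorem card_center_O : Nat.card (Subgroup.center ↥(Cfsg.Omega (ZMod 3) ⇑Q)) = 1 := by
  apply card_center_one hnd (by simp [Fintype.card_sum])
  intro g hg
  exact absurd ⟨g.1, g.2, hg⟩ (neg_one_not_mem_of_odd (h_two) (by simp [Fintype.card_sum]; decide))

theorem center_bot : Subgroup.center ↥(Cfsg.Omega (ZMod 3) ⇑Q) = ⊥ :=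
  Subgroup.eq_bot_of_card_eq _ (card_center_O Q hQ hnd)

/-- The group is its central quotient. -/
noncomputable def eO : ↥(Cfsg.Omega (ZMod 3) ⇑Q) ≃* Cfsg.POmega (ZMod 3) ⇑Q :=
  MulEquiv.ofBijective (QuotientGroup.mk' (Subgroup.center ↥(Cfsg.Omega (ZMod 3) ⇑Q))) (by
    constructor
    · rw [injective_iff_map_eq_one]
      intro a ha
      have h1 : a ∈ Subgroup.center ↥(Cfsg.Omega (ZMod 3) ⇑Q) := (QuotientGroup.eq_one_iff a).1 ha
      rw [center_bot Q hQ hnd] at h1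
      exact (Subgroup.mem_bot).1 h1
    · exact QuotientGroup.mk'_surjective _)

theorem card_O : Nat.card ↥(Cfsg.Omega (ZMod 3) ⇑Q) = 4585351680 := by
  rw [Nat.card_congr (eO Q hQ hnd).toEquiv]
  have h := Cfsg.Agent.S0292.result (F := ZMod 3) (q := 3) (ZMod.card 3) (by decide) 3 (le_refl _)
  rw [← hQ] at h
  have h2 : 2 * Nat.card (Cfsg.POmega (ZMod 3) ⇑Q) = 9170703360 := h.trans (by norm_num [Finset.prod_range_succ])
  omega

/-- The negative of the identity. -/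
theorem exists_neg : ∃ n : OG Q, rho0 Q n = -1 ∧ n * n = 1 ∧ ∀ g : OG Q, n * g = g * n := by
  have hS : (toMat NEG)ᵀ * S7 * toMat NEG = S7 := c_iso NEG (by
    have : NEG ∈ GL1 := by decide +kernel
    simp [this])
  have e : toMat NEG * toMat NEG = 1 := by
    rw [c_NEG]
    simp
  obtain ⟨n, hn⟩ := exists_og Q hQ e e (iso_of_S hS)
  rw [c_NEG] at hn
  refine ⟨n, hn, ?_, ?_⟩
  · apply rho0_inj Q
    rw [map_mul, hn, map_one]
    simp
  · intro g
    apply rho0_inj Q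
    rw [map_mul, map_mul, hn]
    simp

/-- The subgroup generated by the group and the negative of the identity. -/
def GoodS (n : OG Q) (h1 : n * n = 1) (h2 : ∀ g : OG Q, n * g = g * n) : Subgroup (OG Q) where
  carrier := {g | g ∈ Cfsg.Omega (ZMod 3) ⇑Q ∨ n * g ∈ Cfsg.Omega (ZMod 3) ⇑Q}
  one_mem' := Or.inl (one_mem _)
  mul_mem' := by
    rintro a b (ha | ha) (hb | hb)
    · exact Or.inl (mul_mem ha hb)
    · refine Or.inr ?_
      have e : n * (a * b) = a * (n * b) := by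
        rw [← mul_assoc, h2, mul_assoc]
      rw [e]
      exact mul_mem ha hb
    · refine Or.inr ?_
      rw [← mul_assoc]
      exact mul_mem ha hb
    · refine Or.inl ?_
      have e : a * b = (n * a) * (n * b) := by
        rw [mul_assoc, ← mul_assoc a, ← h2, mul_assoc, ← mul_assoc n, h1, one_mul]
      rw [e]
      exact mul_mem ha hb
  inv_mem' := by
    rintro a (ha | ha)
    · exact Or.inl (inv_mem ha)
    · refine Or.inr ?_
      have e : n * a⁻¹ = (n * a)⁻¹ := by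
        have e1 : n⁻¹ = n := inv_eq_of_mul_eq_one_left h1
        rw [_root_.mul_inv_rev, e1, ← h2]
      rw [e]
      exact inv_mem ha

/-- The vector of the first reflection. -/
noncomputable def aV : Iq → ZMod 3 := vec 84 ∘ ordE.symm
/-- The vector of the second reflection. -/
noncomputable def bV : Iq → ZMod 3 := vec 165 ∘ ordE.symm

omit hQ hnd in
theorem Qa7 : Q7 (vec 84) = 1 := by decide +kernel
omit hQ hnd in
theorem Qb7 : Q7 (vec 165) = 2 := by decide +kernel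

omit hQ hnd in
theorem c_HR : ∀ j : Fin 7,
    (fun v => v - (B7 (vec 84) v) • vec 84) ((fun v => v - (2 * B7 (vec 165) v) • vec 165) (Pi.single j 1)) =
      toMat HC *ᵥ Pi.single j 1 := by decide +kernel

/-- A reflection in numbered coordinates. -/
theorem rho_refl {a7 : Fin 7 → ZMod 3} (h : Q (a7 ∘ ordE.symm) ≠ 0) (v : Fin 7 → ZMod 3) :
    rho0 Q (rO Q (a7 ∘ ordE.symm)) *ᵥ v = v - ((Q7 a7)⁻¹ * B7 a7 v) • a7 := by
  rw [rho0_mulVec]
  have e1 : oM (rO Q (a7 ∘ ordE.symm)) = rr Q (a7 ∘ ordE.symm) := rO_mat h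
  rw [e1, Cfsg.Agent.Lib.Spinor.rr, reflection_mulVec, Q_eq_Q7 Q hQ]
  have e2 : QuadraticMap.polar (⇑Q) (a7 ∘ ordE.symm) (v ∘ ordE.symm) = B7 a7 v := by
    rw [QuadraticMap.polar, B7_eq, ← Q_eq_Q7 Q hQ, ← Q_eq_Q7 Q hQ a7, ← Q_eq_Q7 Q hQ v]
    rfl
  rw [e2]
  ext i
  simp

/-- The element with non-square norm. -/
noncomputable def hhO : OG Q := lp Q [aV, bV]

theorem Qa : Q aV = 1 := by rw [aV, Q_eq_Q7 Q hQ, Qa7]
theorem Qb : Q bV = 2 := by rw [bV, Q_eq_Q7 Q hQ, Qb7]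

theorem rho_hh : rho0 Q (hhO Q) = toMat HC := by
  have h1 : Q aV ≠ 0 := by rw [Qa Q hQ hnd]; decide
  have h2 : Q bV ≠ 0 := by rw [Qb Q hQ hnd]; decide
  apply ext_col7 (rho0 Q) (hB0 Q hQ) (hQ0 Q hQ)
  intro j
  rw [← c_HR j, hhO, lp_cons, lp_cons, lp_nil, mul_one, map_mul, ← Matrix.mulVec_mulVec]
  rw [bV, rho_refl Q hQ hnd (by exact h2), aV, rho_refl Q hQ hnd (by exact h1), Qa7, Qb7]
  have e1 : ((1 : ZMod 3))⁻¹ = 1 := inv_one
  have e2 : ((2 : ZMod 3))⁻¹ = 2 := inv_eq_of_mul_eq_one_right (by decide)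
  rw [e1, e2, one_mul]

theorem hh_not_omega : hhO Q ∉ Cfsg.Omega (ZMod 3) ⇑Q := by
  intro h
  have hv : ∀ v ∈ [aV, bV], Q v ≠ 0 := by
    intro v hv
    simp only [List.mem_cons, List.not_mem_nil, or_false] at hv
    rcases hv with rfl | rfl
    · rw [Qa Q hQ hnd]; decide
    · rw [Qb Q hQ hnd]; decide
  have h1 := ((lp_mem_omega_iff hnd (hq3 Q hQ hnd) hv).1 h).2
  have e : nm Q [aV, bV] = 2 := by
    simp only [nm, List.map_cons, List.map_nil, List.prod_cons, List.prod_nil]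
    rw [Qa Q hQ hnd, Qb Q hQ hnd]
    decide
  rw [e] at h1
  exact absurd h1 (by decide)

theorem det_hh : (oM (hhO Q)).det = 1 := by
  have hv : ∀ v ∈ [aV, bV], Q v ≠ 0 := by
    intro v hv
    simp only [List.mem_cons, List.not_mem_nil, or_false] at hv
    rcases hv with rfl | rfl
    · rw [Qa Q hQ hnd]; decide
    · rw [Qb Q hQ hnd]; decide
  have h1 : oM (hhO Q) = ([aV, bV].map (rr Q)).prod := lp_mat hv
  rw [h1, det_list_prod _ hv]
  simp

theorem neg_hh_not_omega {n : OG Q} (hn : rho0 Q n = -1) : n * hhO Q ∉ Cfsg.Omega (ZMod 3) ⇑Q := by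
  intro h
  have h1 := (mem_SO_iff _).1 (commutator_le_SO h)
  have h2 : oM (n * hhO Q) = oM n * oM (hhO Q) := rfl
  rw [h2, Matrix.det_mul, det_hh Q hQ hnd] at h1
  have h3 : oM n = -1 := by
    ext i j
    have := congrFun (congrFun hn (ordE.symm i)) (ordE.symm j)
    simpa [rho0, Matrix.neg_apply, Matrix.one_apply] using this
  rw [h3, Matrix.det_neg, Matrix.det_one] at h1
  have h4 : Fintype.card Iq = 7 := by simp [Fintype.card_sum]
  rw [h4] at h1
  exact absurd h1 (by decide)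

/-- The two elements of the split class are not conjugate. -/
theorem hpairO : ¬ ∃ g : ↥(Cfsg.Omega (ZMod 3) ⇑Q), rhoO Q g * toMat (tl 0) = toMat (tl 4) * rhoO Q g := by
  rintro ⟨g, hg⟩
  obtain ⟨n, hn, hn1, hn2⟩ := exists_neg Q hQ hnd
  let Good := GoodS Q n hn1 hn2
  have hGood : ∀ A ∈ GL1 ++ GL2 ++ GL3, ∃ k ∈ Good, rho0 Q k = toMat A := by
    intro A hA
    rcases c_G3 A hA with rfl | h3
    · exact ⟨n, Or.inr (by rw [hn1]; exact one_mem _), by rw [hn, c_NEG]⟩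
    · have hA' : A ∈ RL ++ GL1 ++ GL2 ++ GL3 ++ [HC] := by
        simp only [List.mem_append] at hA ⊢
        rcases hA with (h | h) | h
        · exact Or.inl (Or.inl (Or.inl (Or.inr h)))
        · exact Or.inl (Or.inl (Or.inr h))
        · exact Or.inl (Or.inr h)
      obtain ⟨k, hk⟩ := exists_cube Q hQ h3 (c_iso A hA')
      have h4 : k ^ 3 = 1 := by
        apply rho0_inj Q
        rw [map_pow, hk, map_one, pow_succ', pow_two, ← toMat_mm, ← toMat_mm, h3, c_ID]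
      exact ⟨k, Or.inl (cube_mem Q hQ hnd h4), hk⟩
  -- the element
  have hHH : toMat HC * toMat HC = 1 := by
    rw [← toMat_mm, c_HC.1, c_ID]
  have hH4 : toMat HC * toMat (tl 0) = toMat (tl 4) * toMat HC := by
    rw [← toMat_mm, ← toMat_mm]
    exact congrArg toMat c_HC.2
  have hrh := rho_hh Q hQ hnd
  have hinv : rho0 Q (hhO Q)⁻¹ = toMat HC := by
    have e1 : rho0 Q (hhO Q)⁻¹ * rho0 Q (hhO Q) = 1 := by rw [← map_mul, inv_mul_cancel, map_one]
    rw [hrh] at e1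
    calc rho0 Q (hhO Q)⁻¹ = rho0 Q (hhO Q)⁻¹ * (toMat HC * toMat HC) := by rw [hHH, mul_one]
      _ = _ := by rw [← mul_assoc, e1, one_mul]
  -- the centralizing element
  have hc : rho0 Q ((hhO Q)⁻¹ * g.1) * toMat X0 = toMat X0 * rho0 Q ((hhO Q)⁻¹ * g.1) := by
    have hg' : rho0 Q g.1 * toMat (tl 0) = toMat (tl 4) * rho0 Q g.1 := hg
    have hX0 : toMat X0 = toMat (tl 0) := rfl
    rw [map_mul, hinv, hX0, mul_assoc, hg', ← mul_assoc, ← mul_assoc]
    congr 1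
    calc toMat HC * toMat (tl 4) = toMat HC * (toMat (tl 4) * (toMat HC * toMat HC)) := by rw [hHH, mul_one]
      _ = toMat HC * ((toMat (tl 4) * toMat HC) * toMat HC) := by simp only [mul_assoc]
      _ = toMat HC * ((toMat HC * toMat (tl 0)) * toMat HC) := by rw [hH4]
      _ = (toMat HC * toMat HC) * toMat (tl 0) * toMat HC := by simp only [mul_assoc]
      _ = toMat (tl 0) * toMat HC := by rw [hHH, one_mul]
  have hmem := main_pair (rho0 Q) Good (hB0 Q hQ) (hQ0 Q hQ) (rho0_inj Q) hGood hc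
  have hgG : g.1 ∈ Good := Or.inl g.2
  have hhG : hhO Q ∈ Good := by
    have e : hhO Q = g.1 * ((hhO Q)⁻¹ * g.1)⁻¹ := by group
    rw [e]
    exact mul_mem hgG (inv_mem hmem)
  rcases hhG with h | h
  · exact hh_not_omega Q hQ hnd h
  · exact neg_hh_not_omega Q hQ hnd hn h

/-- The statement for the group. -/
theorem main_O : ∃ Y : Fin 7 → Subgroup ↥(Cfsg.Omega (ZMod 3) ⇑Q), (∀ i, Nat.card (Y i) = 3) ∧
    (∀ i j, (∃ g : ↥(Cfsg.Omega (ZMod 3) ⇑Q), (Y i).map (MulAut.conj g).toMonoidHom = Y j) → i = j) ∧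
    ∀ X : Subgroup ↥(Cfsg.Omega (ZMod 3) ⇑Q), Nat.card X = 3 →
      ∃ i, ∃ g : ↥(Cfsg.Omega (ZMod 3) ⇑Q), X.map (MulAut.conj g).toMonoidHom = Y i :=
  main_abs (rhoO Q) (rhoO_inj Q) (hRO Q hQ hnd) (card_O Q hQ hnd) (fun g u v => hB0 Q hQ g.1 u v) (hpairO Q hQ hnd)

end form

/-- Transport along an isomorphism. -/
theorem transport {G P : Type*} [Group G] [Group P] (e : G ≃* P)
    (h : ∃ Y : Fin 7 → Subgroup G, (∀ i, Nat.card (Y i) = 3) ∧
      (∀ i j, (∃ g : G, (Y i).map (MulAut.conj g).toMonoidHom = Y j) → i = j) ∧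
      ∀ X : Subgroup G, Nat.card X = 3 → ∃ i, ∃ g : G, X.map (MulAut.conj g).toMonoidHom = Y i) :
    ∃ Y : Fin 7 → Subgroup P, (∀ i, Nat.card (Y i) = 3) ∧
      (∀ i j, (∃ g : P, (Y i).map (MulAut.conj g).toMonoidHom = Y j) → i = j) ∧
      ∀ X : Subgroup P, Nat.card X = 3 → ∃ i, ∃ g : P, X.map (MulAut.conj g).toMonoidHom = Y i := by
  obtain ⟨Y, h1, h2, h3⟩ := h
  have hmap : ∀ (Z : Subgroup G) (g : G), ((Z.map e.toMonoidHom).map (MulAut.conj (e g)).toMonoidHom) =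
      (Z.map (MulAut.conj g).toMonoidHom).map e.toMonoidHom := by
    intro Z g
    rw [Subgroup.map_map, Subgroup.map_map]
    congr 1
    ext x
    simp [MulAut.conj_apply]
  refine ⟨fun i => (Y i).map e.toMonoidHom, ?_, ?_, ?_⟩
  · intro i
    rw [← h1 i]
    exact (Nat.card_congr (Subgroup.equivMapOfInjective _ _ e.injective).toEquiv).symm
  · rintro i j ⟨g, hg⟩
    obtain ⟨g₀, rfl⟩ := e.surjective g
    apply h2 i j
    refine ⟨g₀, ?_⟩
    rw [hmap] at hg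
    exact Subgroup.map_injective e.injective hg
  · intro X hX
    have hc : Nat.card (X.comap e.toMonoidHom) = 3 := by
      rw [← hX]
      have e1 : X.comap e.toMonoidHom = X.map e.symm.toMonoidHom := by
        ext x
        simp only [Subgroup.mem_comap, Subgroup.mem_map]
        constructor
        · intro hx
          exact ⟨e x, hx, by simp⟩
        · rintro ⟨y, hy, rfl⟩
          simpa using hy
      rw [e1]
      exact (Nat.card_congr (Subgroup.equivMapOfInjective _ _ e.symm.injective).toEquiv).symm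
    obtain ⟨i, g, hg⟩ := h3 _ hc
    refine ⟨i, e g, ?_⟩
    have e2 : X = (X.comap e.toMonoidHom).map e.toMonoidHom := by
      rw [Subgroup.map_comap_eq_self_of_surjective e.surjective]
    show X.map _ = (Y i).map e.toMonoidHom
    rw [← hg]
    conv_lhs => rw [e2]
    exact hmap _ _

/-- The final statement. -/
theorem main_S5514 : ∃ Y : Fin 7 → Subgroup (Cfsg.POmega (ZMod 3) (Cfsg.quadFormOdd 3 (ZMod 3))),
    (∀ i, Nat.card (Y i) = 3) ∧
    (∀ i j, (∃ g : Cfsg.POmega (ZMod 3) (Cfsg.quadFormOdd 3 (ZMod 3)), (Y i).map (MulAut.conj g).toMonoidHom = Y j) → i = j) ∧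
    (∀ X : Subgroup (Cfsg.POmega (ZMod 3) (Cfsg.quadFormOdd 3 (ZMod 3))), Nat.card X = 3 →
      ∃ i, ∃ g : Cfsg.POmega (ZMod 3) (Cfsg.quadFormOdd 3 (ZMod 3)), X.map (MulAut.conj g).toMonoidHom = Y i) := by
  obtain ⟨Q, hQ, hnd⟩ := ndq_odd h_two 3
  rw [← hQ]
  exact transport (eO Q hQ hnd) (main_O Q hQ hnd)

end Cfsg.Agent.Lib.O73Cl
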